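import Mathlib
import Cfsg.Agent.Lib.Classical.Orth.Generation
import Cfsg.Agent.Lib.Classical.Orth.Models

/-!
# The odd orthogonal group: root elements and monomial elements

The root elements `XX u k t = E(e_u, t e_k)` of `O(x₀² + Σ xᵢyᵢ)`, with `u` in the hyperbolic
coordinates and `k` any coordinate, and monomial isometries with their action on root elements.
-/

set_option autoImplicit false
set_option linter.unusedSectionVars false
set_option linter.unusedSimpArgs false
set_option linter.unusedVariables false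

namespace Cfsg.Agent.Lib.SpinB

open Matrix QuadraticMap Equiv
open Cfsg.Agent.Lib.Classical.Orth.Basic
open Cfsg.Agent.Lib.Classical.Orth.Models
open Cfsg.Agent.Lib.Classical.Orth.Siegel

variable {m : ℕ} {F : Type*} [Field F]

/-- The hyperbolic coordinates. -/
abbrev Ip (m : ℕ) := Fin m ⊕ Fin m
/-- All coordinates. -/
abbrev Kd (m : ℕ) := Unit ⊕ Ip m

/-- The isometry group. -/
noncomputable abbrev OO (m : ℕ) (F : Type*) [Field F] := ↥(Cfsg.isometryGroup F ⇑(oddForm m F))
/-- The commutator subgroup of the isometry group. -/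
noncomputable abbrev Om (m : ℕ) (F : Type*) [Field F] : Subgroup (OO m F) := Cfsg.Omega F ⇑(oddForm m F)

set_option quotPrecheck false in
local notation "𝔣" => polar (⇑(oddForm m F))

/-- The basis vectors. -/
def ee (k : Kd m) : Kd m → F := Pi.single k 1

theorem ee_apply (k l : Kd m) : (ee k : Kd m → F) l = if l = k then 1 else 0 := by
  simp [ee, Pi.single_apply]

theorem ee_self (k : Kd m) : (ee k : Kd m → F) k = 1 := by simp [ee]

theorem ee_ne_zero (k : Kd m) : (ee k : Kd m → F) ≠ 0 := fun h => by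
  have := congrFun h k
  rw [ee_self] at this
  exact one_ne_zero this

/-- The coordinate `0`. -/
abbrev zr : Kd m := .inl ()

/-- The opposite coordinate. -/
def bar : Kd m → Kd m := Sum.map id Sum.swap

@[simp] theorem bar_inl (x : Unit) : bar (.inl x : Kd m) = .inl x := rfl
@[simp] theorem bar_inr (u : Ip m) : bar (.inr u : Kd m) = .inr u.swap := rfl
@[simp] theorem bar_bar (k : Kd m) : bar (bar k) = k := by
  rcases k with x | u <;> simp

/-- The polar form with a basis vector: the coefficient. -/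
def cc (k : Kd m) : F := Sum.elim (fun _ => 2) (fun _ => 1) k

@[simp] theorem cc_inl (x : Unit) : cc (.inl x : Kd m) = (2 : F) := rfl
@[simp] theorem cc_inr (u : Ip m) : cc (.inr u : Kd m) = (1 : F) := rfl

/-- The norm of a basis vector. -/
def qk (k : Kd m) : F := Sum.elim (fun _ => 1) (fun _ => 0) k

@[simp] theorem qk_inl (x : Unit) : qk (.inl x : Kd m) = (1 : F) := rfl
@[simp] theorem qk_inr (u : Ip m) : qk (.inr u : Kd m) = (0 : F) := rfl

theorem pol_ee (k : Kd m) (x : Kd m → F) : 𝔣 (ee k) x = cc k * x (bar k) := by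
  rw [coe_oddForm]
  rcases k with ⟨⟩ | j | j
  · exact polar_odd_single_unit m x
  · simpa [cc, bar, ee] using polar_odd_single_inl (F := F) m j x
  · simpa [cc, bar, ee] using polar_odd_single_inr (F := F) m j x

theorem Q_ee (k : Kd m) : oddForm m F (ee k) = qk k := by
  rw [coe_oddForm_apply]
  rcases k with ⟨⟩ | j | j
  · simp [Cfsg.quadFormOdd, ee, Pi.single_apply, qk]
  · simp only [Cfsg.quadFormOdd, ee, qk, Pi.single_apply]
    simp
  · simp only [Cfsg.quadFormOdd, ee, qk, Pi.single_apply]
    simp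

theorem Q_eu (u : Ip m) : oddForm m F (ee (.inr u)) = 0 := by
  rw [Q_ee]; rfl

theorem pol_eu (u : Ip m) (x : Kd m → F) : 𝔣 (ee (.inr u)) x = x (.inr u.swap) := by
  rw [pol_ee]; simp

theorem pol_eu_smul {u : Ip m} {k : Kd m} (h : k ≠ .inr u.swap) (t : F) :
    𝔣 (ee (.inr u)) (t • ee k) = 0 := by
  rw [pol_eu]
  simp [ee_apply, Ne.symm h]

/-- The root elements, as a total function. -/
noncomputable def XX (u : Ip m) (k : Kd m) (t : F) : OO m F :=
  if h : k ≠ .inr u.swap then eichlerIso (Q_eu u) (pol_eu_smul h t) else 1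

theorem XX_of {u : Ip m} {k : Kd m} (h : k ≠ .inr u.swap) (t : F) :
    XX u k t = eichlerIso (Q_eu u) (pol_eu_smul h t) := dif_pos h

theorem XX_not {u : Ip m} {k : Kd m} (h : k = .inr u.swap) (t : F) : (XX u k t : OO m F) = 1 := by
  unfold XX
  rw [dif_neg (not_not.mpr h)]

theorem act_XX {u : Ip m} {k : Kd m} (h : k ≠ .inr u.swap) (t : F) (x : Kd m → F) :
    act (XX u k t) x = x + x (.inr u.swap) • (t • ee k) - (t * (cc k * x (bar k))) • ee (.inr u)
      - (t * t * qk k * x (.inr u.swap)) • ee (.inr u) := by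
  rw [XX_of h, act_eichlerIso, pol_eu, polar_smul_left', pol_ee, Q_smul, Q_ee]

theorem XX_add (u : Ip m) (k : Kd m) (s t : F) : XX u k (s + t) = XX u k s * XX u k t := by
  by_cases h : k = .inr u.swap
  · simp [XX_not h]
  · rw [XX_of h, XX_of h, XX_of h, eichlerIso_mul]
    apply Subtype.ext
    apply Units.ext
    show eichlerMatrix _ _ _ = eichlerMatrix _ _ _
    rw [add_smul]

theorem XX_zero (u : Ip m) (k : Kd m) : XX u k (0 : F) = 1 := by
  have := XX_add u k (0 : F) 0
  rw [add_zero] at this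
  exact mul_eq_left.mp this.symm

theorem XX_neg (u : Ip m) (k : Kd m) (t : F) : XX u k (-t) = (XX u k t)⁻¹ := by
  apply eq_inv_of_mul_eq_one_left
  rw [← XX_add, neg_add_cancel, XX_zero]

/-- The symmetry of the names of long root elements. -/
theorem XX_symm {u v : Ip m} (h1 : v ≠ u.swap) (t : F) : XX u (.inr v) t = XX v (.inr u) (-t) := by
  have h2 : (.inr v : Kd m) ≠ .inr u.swap := fun e => h1 (Sum.inr_injective e)
  have h3 : (.inr u : Kd m) ≠ .inr v.swap := fun e => h1 (by
    have : u = v.swap := Sum.inr_injective e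
    rw [this, Sum.swap_swap])
  apply ext_act
  intro x
  rw [act_XX h2, act_XX h3]
  simp only [cc_inr, qk_inr, bar_inr, mul_zero, zero_mul, zero_smul, sub_zero, one_mul, neg_mul]
  module

/-- Validity of a name of a root. -/
def Val (u : Ip m) (k : Kd m) : Prop := k ≠ .inr u ∧ k ≠ .inr u.swap

/-! ### Action on the basis vectors -/

theorem act_fix {u : Ip m} {k l : Kd m} (h : k ≠ .inr u.swap) (h1 : l ≠ .inr u.swap) (h2 : l ≠ bar k) (t : F) :
    act (XX u k t) (ee l) = ee l := by
  rw [act_XX h, ee_apply, ee_apply, if_neg (Ne.symm h1), if_neg (Ne.symm h2)]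
  simp

theorem act_ubar {u : Ip m} {k : Kd m} (h : k ≠ .inr u.swap) (h2 : k ≠ .inr u) (t : F) :
    act (XX u k t) (ee (.inr u.swap)) = ee (.inr u.swap) + t • ee k - (t * t * qk k) • ee (.inr u) := by
  have h3 : (ee (.inr u.swap) : Kd m → F) (bar k) = 0 := by
    rw [ee_apply, if_neg]
    intro e
    apply h2
    rw [← bar_bar k, e]
    simp
  rw [act_XX h, h3, ee_self]
  simp

theorem act_kbar {u : Ip m} {k : Kd m} (h : k ≠ .inr u.swap) (h2 : bar k ≠ .inr u.swap) (t : F) :
    act (XX u k t) (ee (bar k)) = ee (bar k) - (t * cc k) • ee (.inr u) := by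
  rw [act_XX h, ee_apply (bar k) (.inr u.swap), if_neg (Ne.symm h2), ee_self]
  simp

/-! ### Monomial isometries -/

/-- The action on all coordinates of a permutation of the hyperbolic coordinates. -/
def mkK (π : Perm (Ip m)) (k : Kd m) : Kd m := Sum.map id π k

@[simp] theorem mkK_inl (π : Perm (Ip m)) (x : Unit) : mkK π (.inl x) = .inl x := rfl
@[simp] theorem mkK_inr (π : Perm (Ip m)) (u : Ip m) : mkK π (.inr u) = .inr (π u) := rfl

/-- The coefficients on all coordinates. -/
def ck (c : Ip m → F) (c₀ : F) (k : Kd m) : F := Sum.elim (fun _ => c₀) c k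

@[simp] theorem ck_inl (c : Ip m → F) (c₀ : F) (x : Unit) : ck c c₀ (.inl x) = c₀ := rfl
@[simp] theorem ck_inr (c : Ip m → F) (c₀ : F) (u : Ip m) : ck c c₀ (.inr u) = c u := rfl

/-- Monomial isometries. -/
structure IsM (g : OO m F) (π : Perm (Ip m)) (c : Ip m → F) (c₀ : F) : Prop where
  inr : ∀ u, act g (ee (.inr u)) = c u • ee (.inr (π u))
  inl : act g (ee (.inl ())) = c₀ • ee (.inl ())

namespace IsM

variable {g g' : OO m F} {π π' : Perm (Ip m)} {c c' : Ip m → F} {c₀ c₀' : F}

theorem act_ee (h : IsM g π c c₀) (k : Kd m) : act g (ee k) = ck c c₀ k • ee (mkK π k) := by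
  rcases k with ⟨⟩ | u
  · exact h.inl
  · exact h.inr u

theorem act_ne_zero (g : OO m F) {x : Kd m → F} (hx : x ≠ 0) : act g x ≠ 0 := fun h => hx (by
  have := act_inv_act g x
  rw [h, act_zero] at this
  exact this.symm)

theorem ne (h : IsM g π c c₀) (u : Ip m) : c u ≠ 0 := fun h0 => by
  have := h.inr u
  rw [h0, zero_smul] at this
  exact act_ne_zero g (ee_ne_zero _) this

theorem ne0 (h : IsM g π c c₀) : c₀ ≠ 0 := fun h0 => by
  have := h.inl
  rw [h0, zero_smul] at this
  exact act_ne_zero g (ee_ne_zero _) this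

theorem pol_rel (h : IsM g π c c₀) (u v : Ip m) :
    c u * c v * (if (π u).swap = π v then 1 else 0) = if u.swap = v then 1 else 0 := by
  have h1 := polar_act g (ee (.inr u) : Kd m → F) (ee (.inr v))
  rw [h.inr, h.inr, polar_smul_left', polar_smul_right', pol_eu, pol_eu, ee_apply, ee_apply] at h1
  simp only [Sum.inr.injEq] at h1
  rw [← mul_assoc] at h1
  exact h1

theorem swap_eq (h : IsM g π c c₀) (u : Ip m) : π u.swap = (π u).swap := by
  have := h.pol_rel u u.swap
  rw [if_pos rfl] at this
  by_contra hne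
  rw [if_neg (Ne.symm hne), mul_zero] at this
  exact zero_ne_one this

theorem mul_swap (h : IsM g π c c₀) (u : Ip m) : c u * c u.swap = 1 := by
  have := h.pol_rel u u.swap
  rw [if_pos rfl, if_pos (h.swap_eq u).symm, mul_one] at this
  exact this

theorem sq0 (h : IsM g π c c₀) : c₀ * c₀ = 1 := by
  have h1 := Q_act g (ee (.inl ()) : Kd m → F)
  rw [h.inl, Q_smul, Q_ee] at h1
  simpa using h1

theorem mul (h : IsM g π c c₀) (h' : IsM g' π' c' c₀') :
    IsM (g * g') (π * π') (fun u => c' u * c (π' u)) (c₀' * c₀) where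
  inr u := by
    rw [act_mul, h'.inr, act_smul, h.inr, smul_smul]
    rfl
  inl := by
    rw [act_mul, h'.inl, act_smul, h.inl, smul_smul]

theorem inv (h : IsM g π c c₀) : IsM g⁻¹ π⁻¹ (fun u => (c (π⁻¹ u))⁻¹) c₀⁻¹ where
  inr u := by
    have h1 := h.inr (π⁻¹ u)
    have e : π (π⁻¹ u) = u := by simp
    rw [e] at h1
    have h2 : ee (.inr u) = (c (π⁻¹ u))⁻¹ • act g (ee (.inr (π⁻¹ u))) := by
      rw [h1, smul_smul, inv_mul_cancel₀ (h.ne _), one_smul]
    rw [h2, act_smul, act_inv_act]
  inl := by
    have h2 : ee (.inl ()) = c₀⁻¹ • act g (ee (.inl ())) := by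
      rw [h.inl, smul_smul, inv_mul_cancel₀ h.ne0, one_smul]
    conv_lhs => rw [h2]
    rw [act_smul, act_inv_act]

theorem one : IsM (1 : OO m F) 1 (fun _ => 1) 1 where
  inr u := by simp [act_one]
  inl := by simp [act_one]

/-- Two monomial elements with the same permutation. -/
theorem div (h : IsM g π c c₀) (h' : IsM g' π c' c₀') :
    IsM (g * g'⁻¹) 1 (fun u => c (π⁻¹ u) / c' (π⁻¹ u)) (c₀ / c₀') where
  inr u := by
    have h1 := h.mul h'.inv
    rw [h1.inr]
    simp [div_eq_mul_inv, mul_comm]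
  inl := by
    have h1 := h.mul h'.inv
    rw [h1.inl, div_eq_mul_inv, mul_comm]

end IsM

/-- Scaling in an Eichler transformation. -/
theorem eichler_smul {z z' b b' : Kd m → F} (c : F) (hz : oddForm m F z = 0) (hb : 𝔣 z b = 0)
    (hz' : oddForm m F z' = 0) (hb' : 𝔣 z' b' = 0) (e1 : z = c • z') (e2 : b' = c • b) :
    eichlerIso hz hb = eichlerIso hz' hb' := by
  apply ext_act
  intro x
  subst e1 e2
  rw [act_eichlerIso, act_eichlerIso, polar_smul_left', polar_smul_left', Q_smul]
  module

/-- Conjugation of a root element by a monomial isometry. -/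
theorem IsM.conj_XX {g : OO m F} {π : Perm (Ip m)} {c : Ip m → F} {c₀ : F} (h : IsM g π c c₀) (u : Ip m) (k : Kd m)
    (t : F) : g * XX u k t * g⁻¹ = XX (π u) (mkK π k) (c u * ck c c₀ k * t) := by
  by_cases hk : k = .inr u.swap
  · have e : mkK π k = .inr (π u).swap := by rw [hk, mkK_inr, h.swap_eq]
    rw [XX_not hk, XX_not e]
    group
  · have hk' : mkK π k ≠ .inr (π u).swap := by
      intro e
      apply hk
      rcases k with ⟨⟩ | v
      · simp at e
      · rw [mkK_inr] at e
        have e2 : π v = π u.swap := by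
          rw [h.swap_eq]
          exact Sum.inr_injective e
        rw [π.injective e2]
    rw [XX_of hk, XX_of hk', conj_eichlerIso]
    refine eichler_smul (c u) _ _ _ _ (h.inr u) ?_
    rw [act_smul, h.act_ee, smul_smul, smul_smul]
    congr 1
    ring

end Cfsg.Agent.Lib.SpinB
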