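import Mathlib
import Cfsg.Agent.Lib.SpinB.Real

/-!
# The odd orthogonal group: Weyl elements, torus elements, generation
-/

set_option autoImplicit false
set_option linter.unusedSectionVars false
set_option linter.unusedSimpArgs false
set_option linter.unusedVariables false

namespace Cfsg.Agent.Lib.SpinB

open Matrix QuadraticMap Equiv
open Cfsg.Agent.Lib.Classical.Orth.Basic
open Cfsg.Agent.Lib.Classical.Orth.Models
open Cfsg.Agent.Lib.Classical.Orth.Siegel
open Cfsg.Agent.Lib.Classical.Orth.Generation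

variable {m : ℕ} {F : Type*} [Field F]

set_option quotPrecheck false in
local notation "𝔣" => polar (⇑(oddForm m F))

theorem swap_ne (u : Ip m) : u.swap ≠ u := by
  rcases u with i | i <;> simp

theorem swap_ne' (u : Ip m) : u ≠ u.swap := (swap_ne u).symm

theorem swap_inj {u v : Ip m} (h : u.swap = v.swap) : u = v := by
  have := congrArg Sum.swap h
  simpa using this

/-- The Weyl elements. -/
noncomputable def NN (u : Ip m) (k : Kd m) (s : F) : OO m F :=
  XX u k s * XX u.swap (bar k) s⁻¹ * XX u k s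

section Long

variable {u v : Ip m} (huv : u ≠ v) (huv' : u ≠ v.swap)

include huv huv'

theorem v1 : (.inr v : Kd m) ≠ .inr u.swap := fun e => huv' (by
  have : v = u.swap := Sum.inr_injective e
  rw [this, Sum.swap_swap])

theorem actL1 (t : F) : act (XX u (.inr v) t) (ee (.inr u)) = ee (.inr u) := by
  apply act_fix (v1 huv huv')
  · exact fun e => swap_ne' u (Sum.inr_injective e)
  · exact fun e => huv' (Sum.inr_injective e)

theorem actL2 (t : F) : act (XX u (.inr v) t) (ee (.inr v.swap)) = ee (.inr v.swap) - t • ee (.inr u) := by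
  have := act_kbar (F := F) (u := u) (k := .inr v) (v1 huv huv') (fun e => huv (swap_inj (Sum.inr_injective e)).symm) t
  simpa using this

theorem actL3 (t : F) : act (XX u (.inr v) t) (ee (.inr v)) = ee (.inr v) := by
  apply act_fix (v1 huv huv')
  · exact v1 huv huv'
  · exact fun e => swap_ne' v (Sum.inr_injective e)

theorem actL4 (t : F) : act (XX u (.inr v) t) (ee (.inr u.swap)) = ee (.inr u.swap) + t • ee (.inr v) := by
  have := act_ubar (F := F) (u := u) (k := .inr v) (v1 huv huv') (fun e => huv (Sum.inr_injective e).symm) t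
  simpa using this

theorem actL5 (t : F) {l : Kd m} (h1 : l ≠ .inr u.swap) (h2 : l ≠ .inr v.swap) :
    act (XX u (.inr v) t) (ee l) = ee l :=
  act_fix (v1 huv huv') h1 h2 t

/-- The permutation of the long Weyl element. -/
noncomputable def piL (u v : Ip m) : Perm (Ip m) := swap u v.swap * swap v u.swap

/-- The coefficients of the long Weyl element. -/
noncomputable def cL (u v : Ip m) (s : F) : Ip m → F := fun w =>
  if w = u then s⁻¹ else if w = v.swap then -s else if w = v then -s⁻¹ else if w = u.swap then s else 1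

omit huv huv'

theorem bne1 (huv : u ≠ v) : u.swap ≠ v.swap := fun e => huv (swap_inj e)
theorem bne2 (huv' : u ≠ v.swap) : v ≠ u.swap := fun e => huv' (by rw [e, Sum.swap_swap])

include huv huv'

theorem piL_u : piL u v u = v.swap := by
  rw [piL, Perm.mul_apply, swap_apply_of_ne_of_ne huv (swap_ne' u), swap_apply_left]

theorem piL_vb : piL u v v.swap = u := by
  rw [piL, Perm.mul_apply, swap_apply_of_ne_of_ne (swap_ne v) (bne1 huv).symm, swap_apply_right]

theorem piL_v : piL u v v = u.swap := by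
  rw [piL, Perm.mul_apply, swap_apply_left, swap_apply_of_ne_of_ne (swap_ne u) (bne1 huv)]

theorem piL_ub : piL u v u.swap = v := by
  rw [piL, Perm.mul_apply, swap_apply_right, swap_apply_of_ne_of_ne huv.symm (swap_ne' v)]

theorem piL_o {w : Ip m} (h1 : w ≠ u) (h2 : w ≠ v.swap) (h3 : w ≠ v) (h4 : w ≠ u.swap) : piL u v w = w := by
  rw [piL, Perm.mul_apply, swap_apply_of_ne_of_ne h3 h4, swap_apply_of_ne_of_ne h1 h2]

theorem piL_inv : (piL u v)⁻¹ = piL u v := by
  apply inv_eq_of_mul_eq_one_left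
  ext w
  simp only [Perm.mul_apply, Perm.one_apply]
  by_cases h1 : w = u
  · subst h1; rw [piL_u huv huv', piL_vb huv huv']
  by_cases h2 : w = v.swap
  · subst h2; rw [piL_vb huv huv', piL_u huv huv']
  by_cases h3 : w = v
  · subst h3; rw [piL_v huv huv', piL_ub huv huv']
  by_cases h4 : w = u.swap
  · subst h4; rw [piL_ub huv huv', piL_v huv huv']
  rw [piL_o huv huv' h1 h2 h3 h4, piL_o huv huv' h1 h2 h3 h4]

theorem cL_u (s : F) : cL u v s u = s⁻¹ := by simp [cL]
theorem cL_vb (s : F) : cL u v s v.swap = -s := by simp [cL, huv'.symm]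
theorem cL_v (s : F) : cL u v s v = -s⁻¹ := by
  simp [cL, huv.symm, (swap_ne v).symm]
theorem cL_ub (s : F) : cL u v s u.swap = s := by
  simp [cL, swap_ne u, (bne1 huv), (bne2 huv').symm]
theorem cL_o (s : F) {w : Ip m} (h1 : w ≠ u) (h2 : w ≠ v.swap) (h3 : w ≠ v) (h4 : w ≠ u.swap) : cL u v s w = 1 := by
  simp [cL, h1, h2, h3, h4]

theorem isM_NN_long {s : F} (hs : s ≠ 0) : IsM (NN u (.inr v) s) (piL u v) (cL u v s) 1 := by
  have hst : s * s⁻¹ = 1 := mul_inv_cancel₀ hs
  have hu' : u.swap ≠ v := (bne2 huv').symm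
  have hu'' : u.swap ≠ v.swap.swap := by rwa [Sum.swap_swap]
  have b1 := actL1 (F := F) (u := u.swap) (v := v.swap) (bne1 huv) hu'' s⁻¹
  have b2 := actL2 (F := F) (u := u.swap) (v := v.swap) (bne1 huv) hu'' s⁻¹
  have b3 := actL3 (F := F) (u := u.swap) (v := v.swap) (bne1 huv) hu'' s⁻¹
  have b4 := actL4 (F := F) (u := u.swap) (v := v.swap) (bne1 huv) hu'' s⁻¹
  simp only [Sum.swap_swap] at b2 b4
  have a1 := actL1 (F := F) huv huv' s
  have a2 := actL2 (F := F) huv huv' s
  have a3 := actL3 (F := F) huv huv' s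
  have a4 := actL4 (F := F) huv huv' s
  constructor
  · intro w
    simp only [NN, bar_inr, act_mul]
    by_cases h1 : w = u
    · subst h1
      rw [cL_u huv huv', piL_u huv huv', a1, b4, act_add, act_smul, a1, a2]
      have e : (ee (.inr w) + s⁻¹ • (ee (.inr v.swap) - s • ee (.inr w)) : Kd m → F) =
          (1 - s * s⁻¹) • ee (.inr w) + s⁻¹ • ee (.inr v.swap) := by module
      rw [e, hst]
      simp
    by_cases h2 : w = v.swap
    · subst h2
      rw [cL_vb huv huv', piL_vb huv huv', a2, act_sub, act_smul, b3, b4, act_sub, act_smul, act_add, act_smul, a2, a1]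
      have e : (ee (.inr v.swap) - s • ee (.inr u) - s • (ee (.inr u) + s⁻¹ • (ee (.inr v.swap) - s • ee (.inr u))) : Kd m → F) =
          (1 - s * s⁻¹) • ee (.inr v.swap) + (-(2 * s) + s * (s * s⁻¹)) • ee (.inr u) := by module
      rw [e, hst]
      have e2 : -(2 * s) + s * 1 = -s := by ring
      rw [e2]
      simp
    by_cases h3 : w = v
    · subst h3
      rw [cL_v huv huv', piL_v huv huv', a3, b2, act_sub, act_smul, a3, a4]
      have e : (ee (.inr w) - s⁻¹ • (ee (.inr u.swap) + s • ee (.inr w)) : Kd m → F) =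
          (1 - s * s⁻¹) • ee (.inr w) + (-s⁻¹) • ee (.inr u.swap) := by module
      rw [e, hst]
      simp
    by_cases h4 : w = u.swap
    · subst h4
      rw [cL_ub huv huv', piL_ub huv huv', a4, act_add, act_smul, b1, b2, act_add, act_smul, act_sub, act_smul, a4, a3]
      have e : (ee (.inr u.swap) + s • ee (.inr v) + s • (ee (.inr v) - s⁻¹ • (ee (.inr u.swap) + s • ee (.inr v))) : Kd m → F) =
          (1 - s * s⁻¹) • ee (.inr u.swap) + (2 * s - s * (s * s⁻¹)) • ee (.inr v) := by module
      rw [e, hst]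
      have e2 : 2 * s - s * 1 = s := by ring
      rw [e2]
      simp
    · have n1 : (.inr w : Kd m) ≠ .inr u.swap := fun e => h4 (Sum.inr_injective e)
      have n2 : (.inr w : Kd m) ≠ .inr v.swap := fun e => h2 (Sum.inr_injective e)
      have n3 : (.inr w : Kd m) ≠ .inr u.swap.swap := by
        rw [Sum.swap_swap]; exact fun e => h1 (Sum.inr_injective e)
      have n4 : (.inr w : Kd m) ≠ .inr v.swap.swap := by
        rw [Sum.swap_swap]; exact fun e => h3 (Sum.inr_injective e)
      rw [cL_o huv huv' s h1 h2 h3 h4, piL_o huv huv' h1 h2 h3 h4, actL5 huv huv' s n1 n2,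
        actL5 (bne1 huv) hu'' s⁻¹ n3 n4, actL5 huv huv' s n1 n2, one_smul]
  · simp only [NN, bar_inr, act_mul]
    have n1 : (.inl () : Kd m) ≠ .inr u.swap := by simp
    have n2 : (.inl () : Kd m) ≠ .inr v.swap := by simp
    have n3 : (.inl () : Kd m) ≠ .inr u.swap.swap := by simp
    have n4 : (.inl () : Kd m) ≠ .inr v.swap.swap := by simp
    rw [actL5 huv huv' s n1 n2, actL5 (bne1 huv) hu'' s⁻¹ n3 n4, actL5 huv huv' s n1 n2, one_smul]

/-- The torus elements attached to long roots. -/
noncomputable def HL (u v : Ip m) (s : F) : OO m F := NN u (.inr v) s * (NN u (.inr v) 1)⁻¹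

/-- The coefficients of the torus elements attached to long roots. -/
noncomputable def dL (u v : Ip m) (s : F) : Ip m → F := fun w =>
  if w = u ∨ w = v then s else if w = u.swap ∨ w = v.swap then s⁻¹ else 1

theorem isM_HL {s : F} (hs : s ≠ 0) : IsM (HL u v s) 1 (dL u v s) 1 := by
  have h1 := (isM_NN_long huv huv' hs).div (isM_NN_long (F := F) huv huv' one_ne_zero)
  rw [div_one] at h1
  have e : (fun w => cL u v s ((piL u v)⁻¹ w) / cL u v (1 : F) ((piL u v)⁻¹ w)) = dL u v s := by
    funext w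
    rw [piL_inv huv huv']
    by_cases h1 : w = u
    · subst h1
      rw [piL_u huv huv', cL_vb huv huv', cL_vb huv huv']
      simp [dL]
    by_cases h3 : w = v
    · subst h3
      rw [piL_v huv huv', cL_ub huv huv', cL_ub huv huv']
      simp [dL]
    by_cases h4 : w = u.swap
    · subst h4
      rw [piL_ub huv huv', cL_v huv huv', cL_v huv huv']
      simp [dL, swap_ne u, bne2 huv', h3]
    by_cases h2 : w = v.swap
    · subst h2
      rw [piL_vb huv huv', cL_u huv huv', cL_u huv huv']
      simp [dL, h1, h3]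
    · rw [piL_o huv huv' h1 h2 h3 h4, cL_o huv huv' s h1 h2 h3 h4, cL_o huv huv' 1 h1 h2 h3 h4]
      simp [dL, h1, h2, h3, h4]
  rw [e] at h1
  exact h1

end Long

section Short

variable (u : Ip m)

theorem n0 : (.inl () : Kd m) ≠ .inr u.swap := by simp

theorem actS1 (t : F) : act (XX u zr t) (ee (.inr u)) = ee (.inr u) := by
  apply act_fix (n0 u)
  · exact fun e => swap_ne' u (Sum.inr_injective e)
  · simp

theorem actS2 (t : F) : act (XX u zr t) (ee zr) = ee zr - (t * 2) • ee (.inr u) := by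
  have := act_kbar (F := F) (u := u) (k := zr) (n0 u) (by simp) t
  simpa using this

theorem actS3 (t : F) :
    act (XX u zr t) (ee (.inr u.swap)) = ee (.inr u.swap) + t • ee zr - (t * t) • ee (.inr u) := by
  have := act_ubar (F := F) (u := u) (k := zr) (n0 u) (by simp) t
  simpa using this

theorem actS4 (t : F) {l : Kd m} (h1 : l ≠ .inr u.swap) (h2 : l ≠ zr) : act (XX u zr t) (ee l) = ee l :=
  act_fix (n0 u) h1 h2 t

/-- The coefficients of the short Weyl element. -/
noncomputable def cS (u : Ip m) (s : F) : Ip m → F := fun w =>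
  if w = u then -(s⁻¹ * s⁻¹) else if w = u.swap then -(s * s) else 1

theorem isM_NN_short {s : F} (hs : s ≠ 0) : IsM (NN u zr s) (swap u u.swap) (cS u s) (-1) := by
  have hst : s * s⁻¹ = 1 := mul_inv_cancel₀ hs
  have a1 := actS1 (F := F) u s
  have a2 := actS2 (F := F) u s
  have a3 := actS3 (F := F) u s
  have b1 := actS1 (F := F) u.swap s⁻¹
  have b2 := actS2 (F := F) u.swap s⁻¹
  have b3 := actS3 (F := F) u.swap s⁻¹
  rw [Sum.swap_swap] at b3
  have c1 : 1 - 2 * (s * s⁻¹) + (s * s⁻¹) * (s * s⁻¹) = (0 : F) := by rw [hst]; ring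
  constructor
  · intro w
    simp only [NN, bar_inl, act_mul]
    by_cases h1 : w = u
    · subst h1
      have e0 : cS w s w = -(s⁻¹ * s⁻¹) := by simp [cS]
      rw [e0, swap_apply_left]
      simp only [a1, b3, act_sub, act_add, act_smul, a2, a3]
      have c2 : s⁻¹ * (1 - s * s⁻¹) = (0 : F) := by rw [hst]; ring
      calc _ = (1 - 2 * (s * s⁻¹) + (s * s⁻¹) * (s * s⁻¹)) • ee (.inr w) + (s⁻¹ * (1 - s * s⁻¹)) • ee zr
            + (-(s⁻¹ * s⁻¹)) • ee (.inr w.swap) := by module
        _ = _ := by rw [c1, c2]; simp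
    by_cases h2 : w = u.swap
    · subst h2
      have e0 : cS u s u.swap = -(s * s) := by simp [cS, swap_ne u]
      rw [e0, swap_apply_right]
      simp only [a1, b1, b2, b3, act_sub, act_add, act_smul, a2, a3]
      have c2 : s * (2 - 3 * (s * s⁻¹) + (s * s⁻¹) * (s * s⁻¹)) = (0 : F) := by rw [hst]; ring
      have c3 : s * s * (-4 + 4 * (s * s⁻¹) - (s * s⁻¹) * (s * s⁻¹)) = -(s * s) := by rw [hst]; ring
      calc _ = (1 - 2 * (s * s⁻¹) + (s * s⁻¹) * (s * s⁻¹)) • ee (.inr u.swap)
            + (s * (2 - 3 * (s * s⁻¹) + (s * s⁻¹) * (s * s⁻¹))) • ee zr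
            + (s * s * (-4 + 4 * (s * s⁻¹) - (s * s⁻¹) * (s * s⁻¹))) • ee (.inr u) := by module
        _ = _ := by rw [c1, c2, c3]; simp
    · have e0 : cS u s w = 1 := by simp [cS, h1, h2]
      have n1 : (.inr w : Kd m) ≠ .inr u.swap := fun e => h2 (Sum.inr_injective e)
      have n2 : (.inr w : Kd m) ≠ .inr u.swap.swap := by
        rw [Sum.swap_swap]; exact fun e => h1 (Sum.inr_injective e)
      rw [e0, swap_apply_of_ne_of_ne h1 h2, actS4 u s n1 (by simp), actS4 u.swap s⁻¹ n2 (by simp),
        actS4 u s n1 (by simp), one_smul]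
  · simp only [NN, bar_inl, act_mul]
    simp only [a1, b1, b2, b3, act_sub, act_add, act_smul, a2, a3]
    have c2 : s⁻¹ * (-2 + 2 * (s * s⁻¹)) = (0 : F) := by rw [hst]; ring
    have c3 : s * (-4 + 6 * (s * s⁻¹) - 2 * ((s * s⁻¹) * (s * s⁻¹))) = (0 : F) := by rw [hst]; ring
    have c4 : 1 - 4 * (s * s⁻¹) + 2 * ((s * s⁻¹) * (s * s⁻¹)) = (-1 : F) := by rw [hst]; ring
    calc _ = (1 - 4 * (s * s⁻¹) + 2 * ((s * s⁻¹) * (s * s⁻¹))) • ee zr
          + (s⁻¹ * (-2 + 2 * (s * s⁻¹))) • ee (.inr u.swap)
          + (s * (-4 + 6 * (s * s⁻¹) - 2 * ((s * s⁻¹) * (s * s⁻¹)))) • ee (.inr u) := by module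
      _ = _ := by rw [c4, c2, c3]; simp

/-- The torus elements attached to short roots. -/
noncomputable def HS (u : Ip m) (s : F) : OO m F := NN u zr s * (NN u zr 1)⁻¹

/-- The coefficients of the torus elements attached to short roots. -/
noncomputable def dS (u : Ip m) (s : F) : Ip m → F := fun w =>
  if w = u then s * s else if w = u.swap then (s * s)⁻¹ else 1

theorem isM_HS {s : F} (hs : s ≠ 0) : IsM (HS u s) 1 (dS u s) 1 := by
  have h1 := (isM_NN_short u hs).div (isM_NN_short (F := F) u one_ne_zero)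
  have e0 : (-1 : F) / -1 = 1 := by
    rw [div_self]
    exact neg_ne_zero.mpr one_ne_zero
  rw [e0] at h1
  have e : (fun w => cS u s ((swap u u.swap)⁻¹ w) / cS u (1 : F) ((swap u u.swap)⁻¹ w)) = dS u s := by
    funext w
    rw [swap_inv]
    by_cases h1 : w = u
    · subst h1
      rw [swap_apply_left]
      simp [cS, dS, swap_ne w]
    by_cases h2 : w = u.swap
    · subst h2
      rw [swap_apply_right]
      simp [cS, dS, swap_ne u]
    · rw [swap_apply_of_ne_of_ne h1 h2]
      simp [cS, dS, h1, h2]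
  rw [e] at h1
  exact h1

end Short

end Cfsg.Agent.Lib.SpinB
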