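import Mathlib
import Cfsg.Agent.Lib.SpinB.Real2

/-!
# The odd orthogonal group: generation by the coordinate root elements
-/

set_option autoImplicit false
set_option linter.unusedSectionVars false
set_option linter.unusedSimpArgs false
set_option linter.unusedVariables false

namespace Cfsg.Agent.Lib.SpinB

open Matrix QuadraticMap Equiv
open Cfsg.Agent.Lib.Classical.Orth.Basic
open Cfsg.Agent.Lib.Classical.Orth.Models
open Cfsg.Agent.Lib.Classical.Orth.Siegel
open Cfsg.Agent.Lib.Classical.Orth.Generation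

variable {m : ℕ} {F : Type*} [Field F]

set_option quotPrecheck false in
local notation "𝔣" => polar (⇑(oddForm m F))

theorem card_Kd (hm : 2 ≤ m) : 5 ≤ Fintype.card (Kd m) := by
  simp only [Fintype.card_sum, Fintype.card_unit, Fintype.card_fin]
  omega

theorem XX_mem [Fintype F] (h2 : (2 : F) ≠ 0) (hm : 2 ≤ m) (u : Ip m) (k : Kd m) (t : F) : XX u k t ∈ Om m F := by
  by_cases h : k = .inr u.swap
  · rw [XX_not h]
    exact one_mem _
  · rw [XX_of h]
    exact eichler_mem_omega (oddForm_nondegenerate h2 m) (card_Kd hm) _ _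

theorem NN_mem [Fintype F] (h2 : (2 : F) ≠ 0) (hm : 2 ≤ m) (u : Ip m) (k : Kd m) (s : F) : NN u k s ∈ Om m F :=
  mul_mem (mul_mem (XX_mem h2 hm _ _ _) (XX_mem h2 hm _ _ _)) (XX_mem h2 hm _ _ _)

theorem HL_mem [Fintype F] (h2 : (2 : F) ≠ 0) (hm : 2 ≤ m) (u v : Ip m) (s : F) : HL u v s ∈ Om m F :=
  mul_mem (NN_mem h2 hm _ _ _) (inv_mem (NN_mem h2 hm _ _ _))

theorem HS_mem [Fintype F] (h2 : (2 : F) ≠ 0) (hm : 2 ≤ m) (u : Ip m) (s : F) : HS u s ∈ Om m F :=
  mul_mem (NN_mem h2 hm _ _ _) (inv_mem (NN_mem h2 hm _ _ _))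

/-- The subgroup generated by the root elements. -/
noncomputable def LL (m : ℕ) (F : Type*) [Field F] : Subgroup (OO m F) :=
  Subgroup.closure {g | ∃ u k t, g = XX u k t}

theorem XX_mem_LL (u : Ip m) (k : Kd m) (t : F) : XX u k t ∈ LL m F :=
  Subgroup.subset_closure ⟨u, k, t, rfl⟩

theorem act_coord {b : Ip m} {k : Kd m} (h : k ≠ .inr b.swap) (t : F) (x : Kd m → F) (k' : Kd m) :
    (act (XX b k t) x) k' = x k' + x (.inr b.swap) * (t * ee k k')
      - (t * (cc k * x (bar k)) + t * t * qk k * x (.inr b.swap)) * ee (.inr b) k' := by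
  rw [act_XX h]
  simp only [Pi.sub_apply, Pi.add_apply, Pi.smul_apply, smul_eq_mul]
  ring

theorem clear_coords {z : Kd m → F} {p : Ip m} (hp : z (.inr p) ≠ 0) (S : Finset (Kd m))
    (hS : ∀ k ∈ S, k ≠ .inr p.swap ∧ k ≠ .inr p) :
    ∃ l ∈ LL m F, (act l z) (.inr p) = z (.inr p) ∧ ∀ k ∈ S, (act l z) k = 0 := by
  classical
  induction S using Finset.induction_on with
  | empty => exact ⟨1, one_mem _, by rw [act_one], by simp⟩
  | insert k₀ S hk₀ ih =>
    obtain ⟨l, hl, h1, h2⟩ := ih (fun k hk => hS k (Finset.mem_insert_of_mem hk))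
    obtain ⟨hk1, hk2⟩ := hS k₀ (Finset.mem_insert_self _ _)
    set w := act l z with hw
    have hv : k₀ ≠ .inr p.swap.swap := by rwa [Sum.swap_swap]
    have hpne : (.inr p : Kd m) ≠ .inr p.swap := fun e => swap_ne' p (Sum.inr_injective e)
    set t : F := -(w k₀) / w (.inr p) with ht
    have hw0 : w (.inr p) ≠ 0 := by rw [h1]; exact hp
    refine ⟨XX p.swap k₀ t * l, mul_mem (XX_mem_LL _ _ _) hl, ?_, ?_⟩
    · rw [act_mul, ← hw, act_coord hv, Sum.swap_swap, h1, ee_apply, if_neg (Ne.symm hk2), ee_apply, if_neg hpne]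
      ring
    · intro k hk
      rw [act_mul, ← hw, act_coord hv, Sum.swap_swap]
      rcases Finset.mem_insert.mp hk with rfl | hk'
      · rw [ee_self, ee_apply, if_neg hk1]
        have : w (.inr p) * (t * 1) = -(w k) := by
          rw [ht]
          field_simp
        rw [this]
        ring
      · obtain ⟨hk3, hk4⟩ := hS k (Finset.mem_insert_of_mem hk')
        rw [h2 k hk', ee_apply, if_neg (fun e : k = k₀ => hk₀ (e ▸ hk')), ee_apply, if_neg hk3]
        ring

theorem exists_to_basis {z : Kd m → F} (hz : oddForm m F z = 0) (hz0 : z ≠ 0) :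
    ∃ l ∈ LL m F, ∃ p : Ip m, ∃ c : F, act l z = c • ee (.inr p) := by
  classical
  obtain ⟨p, hp⟩ : ∃ p : Ip m, z (.inr p) ≠ 0 := by
    by_contra hcon
    push Not at hcon
    apply hz0
    have h1 : z (.inl ()) = 0 := by
      have h2 : oddForm m F z = z (.inl ()) ^ 2 := by
        rw [coe_oddForm_apply, Cfsg.quadFormOdd]
        simp [hcon]
      rw [hz] at h2
      exact pow_eq_zero_iff (two_ne_zero) |>.mp h2.symm
    funext k
    rcases k with ⟨⟩ | u
    · exact h1
    · exact hcon u
  obtain ⟨l, hl, h1, h2⟩ := clear_coords hp (Finset.univ.filter fun k : Kd m => k ≠ .inr p.swap ∧ k ≠ .inr p)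
    (fun k hk => by simpa using hk)
  refine ⟨l, hl, p, z (.inr p), ?_⟩
  set w := act l z with hw
  have e : w = w (.inr p.swap) • ee (.inr p.swap) + w (.inr p) • ee (.inr p) := by
    funext k
    by_cases h3 : k = .inr p.swap
    · subst h3
      have : (.inr p.swap : Kd m) ≠ .inr p := fun e => swap_ne p (Sum.inr_injective e)
      simp [ee_apply, this]
    by_cases h4 : k = .inr p
    · subst h4
      have : (.inr p : Kd m) ≠ .inr p.swap := fun e => swap_ne' p (Sum.inr_injective e)
      simp [ee_apply, this]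
    · have := h2 k (by simp [h3, h4])
      simp [ee_apply, h3, h4, this]
  have hq : oddForm m F w = 0 := by rw [hw, Q_act, hz]
  have hq2 : oddForm m F w = w (.inr p.swap) * w (.inr p) := by
    conv_lhs => rw [e]
    rw [Q_add, Q_smul, Q_smul, Q_eu, Q_eu, polar_smul_left', polar_smul_right', pol_eu, Sum.swap_swap, ee_self]
    ring
  have hw0 : w (.inr p) ≠ 0 := by rw [h1]; exact hp
  have h5 : w (.inr p.swap) = 0 := by
    rw [hq] at hq2
    exact (mul_eq_zero.mp hq2.symm).resolve_right hw0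
  rw [e, h5, h1]
  simp

theorem eich_sum_mem (p : Ip m) (S : Finset (Kd m)) (hS : ∀ k ∈ S, k ≠ .inr p.swap) (f : Kd m → F)
    (h : 𝔣 (ee (.inr p)) (∑ k ∈ S, f k • ee k) = 0) : eichlerIso (Q_eu p) h ∈ LL m F := by
  classical
  induction S using Finset.induction_on with
  | empty =>
    have : eichlerIso (Q_eu p) h = 1 := by
      apply Subtype.ext
      apply Units.ext
      show eichlerMatrix _ _ _ = 1
      rw [Finset.sum_empty, eichlerMatrix_zero]
    rw [this]
    exact one_mem _
  | insert k₀ S hk₀ ih =>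
    have h1 : 𝔣 (ee (.inr p)) (f k₀ • ee k₀) = 0 := pol_eu_smul (hS k₀ (Finset.mem_insert_self _ _)) _
    have h2 : 𝔣 (ee (.inr p)) (∑ k ∈ S, f k • ee k) = 0 := by
      rw [Finset.sum_insert hk₀, polar_add_right, h1, zero_add] at h
      exact h
    have e : eichlerIso (Q_eu p) h = eichlerIso (Q_eu p) h1 * eichlerIso (Q_eu p) h2 := by
      rw [eichlerIso_mul]
      apply Subtype.ext
      apply Units.ext
      show eichlerMatrix _ _ _ = eichlerMatrix _ _ _
      rw [Finset.sum_insert hk₀]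
    rw [e, ← XX_of (hS k₀ (Finset.mem_insert_self _ _))]
    exact mul_mem (XX_mem_LL _ _ _) (ih (fun k hk => hS k (Finset.mem_insert_of_mem hk)) h2)

theorem eich_mem (p : Ip m) {b : Kd m → F} (h : 𝔣 (ee (.inr p)) b = 0) : eichlerIso (Q_eu p) h ∈ LL m F := by
  classical
  have hb : b (.inr p.swap) = 0 := by rwa [pol_eu] at h
  have e : b = ∑ k ∈ Finset.univ.erase (.inr p.swap : Kd m), b k • ee k := by
    funext k₀
    rw [Finset.sum_apply]
    simp only [Pi.smul_apply, smul_eq_mul, ee_apply, mul_ite, mul_one, mul_zero]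
    rw [Finset.sum_ite_eq]
    by_cases h3 : k₀ = .inr p.swap
    · subst h3
      simp [hb]
    · simp [h3]
  have h' : 𝔣 (ee (.inr p)) (∑ k ∈ Finset.univ.erase (.inr p.swap : Kd m), b k • ee k) = 0 := by
    rw [← e]; exact h
  have e2 : eichlerIso (Q_eu p) h = eichlerIso (Q_eu p) h' := by
    apply Subtype.ext
    apply Units.ext
    show eichlerMatrix _ _ _ = eichlerMatrix _ _ _
    rw [← e]
  rw [e2]
  exact eich_sum_mem p _ (fun k hk => (Finset.mem_erase.mp hk).1) b h'

/-- The Eichler transformations are in the group generated by the root elements. -/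
theorem eichler_mem_LL {z b : Kd m → F} (hz : oddForm m F z = 0) (hb : 𝔣 z b = 0) : eichlerIso hz hb ∈ LL m F := by
  by_cases hz0 : z = 0
  · subst hz0
    have : eichlerIso hz hb = 1 := by
      apply ext_act
      intro x
      rw [act_eichlerIso, act_one, polar_zero_left]
      simp
    rw [this]
    exact one_mem _
  obtain ⟨l, hl, p, c, hlz⟩ := exists_to_basis hz hz0
  have h1 : l * eichlerIso hz hb * l⁻¹ ∈ LL m F := by
    rw [conj_eichlerIso]
    have hb' : 𝔣 (ee (.inr p)) (c • act l b) = 0 := by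
      by_cases hc : c = 0
      · rw [hc, zero_smul, polar_zero_right]
      · have h3 : 𝔣 (act l z) (act l b) = 0 := by rwa [polar_act]
        rw [hlz, polar_smul_left'] at h3
        rw [polar_smul_right', h3]
    rw [eichler_smul c _ _ (Q_eu p) hb' hlz rfl]
    exact eich_mem p hb'
  have e : eichlerIso hz hb = l⁻¹ * (l * eichlerIso hz hb * l⁻¹) * l := by group
  rw [e]
  exact mul_mem (mul_mem (inv_mem hl) h1) hl

/-- The commutator subgroup of the orthogonal group is generated by the root elements. -/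
theorem Om_eq_LL [Fintype F] (h2 : (2 : F) ≠ 0) (hm : 2 ≤ m) : Om m F = LL m F := by
  apply le_antisymm
  · show Cfsg.Omega F ⇑(oddForm m F) ≤ _
    rw [omega_eq_rootGroup (oddForm_nondegenerate h2 m) h2 (card_Kd hm), rootGroup, Subgroup.closure_le]
    intro g hg
    obtain ⟨u, v, c, hu, hv, huv, rfl⟩ := mem_siegelSet_iff.1 hg
    exact eichler_mem_LL _ _
  · rw [LL, Subgroup.closure_le]
    rintro _ ⟨u, k, t, rfl⟩
    exact XX_mem h2 hm u k t

/-! ### Flips -/

/-- The element realising a choice of signs. -/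
theorem exists_flip [Fintype F] (h2 : (2 : F) ≠ 0) (hm : 2 ≤ m) (S : Finset (Fin m)) :
    ∃ g ∈ Om m F, ∃ (π : Perm (Ip m)) (c : Ip m → F) (c₀ : F), IsM g π c c₀ ∧
      ∀ a, π (.inl a) = if a ∈ S then .inr a else .inl a := by
  classical
  induction S using Finset.induction_on with
  | empty => exact ⟨1, one_mem _, 1, _, _, IsM.one, by simp⟩
  | insert a S ha ih =>
    obtain ⟨g, hg, π, c, c₀, hM, hπ⟩ := ih
    refine ⟨NN (.inl a) zr (1 : F) * g, mul_mem (NN_mem h2 hm _ _ _) hg, _, _, _,
      (isM_NN_short (.inl a) one_ne_zero).mul hM, ?_⟩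
    intro b
    rw [Perm.mul_apply, hπ]
    by_cases hb : b = a
    · subst hb
      simp [ha]
    · by_cases hbS : b ∈ S
      · simp [hbS, hb, swap_apply_of_ne_of_ne]
      · simp [hbS, hb, swap_apply_of_ne_of_ne]

end Cfsg.Agent.Lib.SpinB
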