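import Mathlib
import Cfsg.Agent.Lib.SpinB.Real3
import Cfsg.Agent.Lib.Sporadic.Stem

/-!
# Central extensions of the odd orthogonal groups: good lifts of root elements

For a central extension `σ : Γ → Ω` there is a unique lift of each root group which is additive and
compatible with conjugation by the lifts of diagonal elements.  It is obtained as the commutator of a
lift with the lift of a diagonal element inverting the root group.
-/

set_option autoImplicit false
set_option linter.unusedSectionVars false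
set_option linter.unusedSimpArgs false
set_option linter.unusedVariables false

namespace Cfsg.Agent.Lib.SpinB

open Matrix QuadraticMap Equiv
open Cfsg.Agent.Lib.Classical.Orth.Basic
open Cfsg.Agent.Lib.Classical.Orth.Models
open Cfsg.Agent.Lib.Classical.Orth.Siegel
open Cfsg.Agent.Lib.Classical.Orth.Generation
open Cfsg.Agent.Lib.Sporadic.Stem

variable {m : ℕ} {F : Type*} [Field F]

/-! ### Additive functions -/

/-- An additive function with `c (-s) = c s` is trivial. -/
theorem add_neg_trivial (h2 : (2 : F) ≠ 0) {A : Type*} [Group A] {c : F → A}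
    (hadd : ∀ s t, c (s + t) = c s * c t) (hneg : ∀ s, c (-s) = c s) (s : F) : c s = 1 := by
  have h0 : c 0 = 1 := by
    have := hadd 0 0
    rw [add_zero] at this
    exact mul_eq_left.mp this.symm
  have h1 : c (s / 2) * c (s / 2) = 1 := by
    have := hadd (s / 2) (-(s / 2))
    rw [add_neg_cancel, h0, hneg] at this
    exact this.symm
  have h3 : s = s / 2 + s / 2 := by
    field_simp
    ring
  rw [h3, hadd, h1]

/-- A biadditive function invariant under scaling, alternating, is trivial. -/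
theorem bi_trivial (h2 : (2 : F) ≠ 0) {A : Type*} [Group A] {ω : F → F → A}
    (h1 : ∀ s s' t, ω (s + s') t = ω s t * ω s' t) (h3 : ∀ s t t', ω s (t + t') = ω s t * ω s t')
    (hinv : ∀ l : F, l ≠ 0 → ∀ s t, ω (l * s) (l * t) = ω s t) (halt : ∀ s, ω s s = 1) (s t : F) : ω s t = 1 := by
  have z1 : ∀ t, ω 0 t = 1 := by
    intro t
    have := h1 0 0 t
    rw [add_zero] at this
    exact mul_eq_left.mp this.symm
  have z2 : ∀ s, ω s 0 = 1 := by
    intro s
    have := h3 s 0 0
    rw [add_zero] at this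
    exact mul_eq_left.mp this.symm
  have n2 : ∀ s t, ω s (-t) = (ω s t)⁻¹ := by
    intro s t
    apply eq_inv_of_mul_eq_one_left
    rw [← h3, neg_add_cancel, z2]
  have n1 : ∀ s t, ω (-s) t = (ω s t)⁻¹ := by
    intro s t
    apply eq_inv_of_mul_eq_one_left
    rw [← h1, neg_add_cancel, z1]
  by_cases hx : ∃ x : F, x ≠ 0 ∧ x ≠ 1 ∧ x * (1 - x) - 1 ≠ 0
  · obtain ⟨x, x0, x1, xe⟩ := hx
    have x1' : 1 - x ≠ 0 := sub_ne_zero.mpr (Ne.symm x1)
    have e1 : ∀ a b : F, a ≠ 0 → ω a b = ω 1 (a⁻¹ * b) := by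
      intro a b ha
      have := hinv a⁻¹ (inv_ne_zero ha) a b
      rw [inv_mul_cancel₀ ha] at this
      exact this.symm
    have key : ∀ S : F, ω 1 (S * x * (1 - x)) = ω 1 S := by
      intro S
      have e2 : ω 1 (S * x * (1 - x)) = ω (1 - x) (S * x * (1 - x)) * ω x (S * x * (1 - x)) := by
        rw [← h1]
        congr 1
        ring
      have e3 : (1 - x)⁻¹ * (S * x * (1 - x)) = S * x := by
        field_simp
      have e4 : x⁻¹ * (S * x * (1 - x)) = S * (1 - x) := by
        field_simp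
      rw [e2, e1 _ _ x1', e1 _ _ x0, e3, e4, ← h3]
      congr 1
      ring
    have key2 : ∀ S : F, ω 1 (S * (x * (1 - x) - 1)) = 1 := by
      intro S
      have e5 : S * (x * (1 - x) - 1) = S * x * (1 - x) + -S := by ring
      rw [e5, h3, key, n2, mul_inv_cancel]
    have all : ∀ y : F, ω 1 y = 1 := by
      intro y
      have := key2 (y * (x * (1 - x) - 1))⁻¹
      have e6 : y = (y / (x * (1 - x) - 1)) * (x * (1 - x) - 1) := by
        field_simp
      rw [e6]
      exact key2 _
    by_cases hs : s = 0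
    · rw [hs, z1]
    · rw [e1 s t hs, all]
  · push Not at hx
    have m1 : (-1 : F) ≠ 0 := neg_ne_zero.mpr one_ne_zero
    have m2 : (-1 : F) ≠ 1 := by
      intro e
      apply h2
      linear_combination -e
    have h30 : (3 : F) = 0 := by
      have := hx (-1) m1 m2
      linear_combination -this
    have cases : ∀ y : F, y = 0 ∨ y = 1 ∨ y = -1 := by
      intro y
      by_cases y0 : y = 0
      · exact Or.inl y0
      by_cases y1 : y = 1
      · exact Or.inr (Or.inl y1)
      right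
      right
      have h5 := hx y y0 y1
      have h6 : (y + 1) * (y + 1) = 0 := by
        linear_combination -h5 + y * h30
      have := mul_self_eq_zero.mp h6
      linear_combination this
    have b11 : ω 1 1 = 1 := halt 1
    rcases cases s with rfl | rfl | rfl <;> rcases cases t with rfl | rfl | rfl <;>
      simp only [z1, z2, n1, n2, b11, inv_one, inv_inv]

/-! ### The sign changes -/

/-- The index of a hyperbolic coordinate. -/
def idx : Ip m → Fin m := Sum.elim id id

@[simp] theorem idx_inl (a : Fin m) : idx (.inl a : Ip m) = a := rfl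
@[simp] theorem idx_inr (a : Fin m) : idx (.inr a : Ip m) = a := rfl
@[simp] theorem idx_swap (u : Ip m) : idx u.swap = idx u := by
  rcases u with a | a <;> rfl

theorem eq_or_swap_of_idx {u v : Ip m} (h : idx u = idx v) : v = u ∨ v = u.swap := by
  rcases u with a | a <;> rcases v with b | b <;> simp_all

theorem exists_third (hm : 3 ≤ m) (a b : Fin m) : ∃ c : Fin m, c ≠ a ∧ c ≠ b := by
  by_contra hcon
  push Not at hcon
  have h : (Finset.univ : Finset (Fin m)) ⊆ {a, b} := by
    intro c _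
    by_cases h1 : c = a
    · simp [h1]
    · simp [hcon c h1]
  have h2 := Finset.card_le_card h
  have h3 : ({a, b} : Finset (Fin m)).card ≤ 2 := Finset.card_le_two
  simp at h2
  omega

section Fin4

theorem exists_fourth (hm : 4 ≤ m) (a b c : Fin m) : ∃ d : Fin m, d ≠ a ∧ d ≠ b ∧ d ≠ c := by
  by_contra hcon
  push Not at hcon
  have h : (Finset.univ : Finset (Fin m)) ⊆ {a, b, c} := by
    intro d _
    by_cases h1 : d = a
    · simp [h1]
    by_cases h2 : d = b
    · simp [h2]
    · simp [hcon d h1 h2]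
  have h2 := Finset.card_le_card h
  have h3 : ({a, b, c} : Finset (Fin m)).card ≤ 3 := Finset.card_le_three
  simp at h2
  omega

end Fin4

/-! ### Commuting diagonal elements -/

theorem ext_ee {g g' : OO m F} (h : ∀ k, act g (ee k) = act g' (ee k)) : g = g' := by
  apply Subtype.ext
  apply Units.ext
  exact Matrix.ext_of_mulVec_single (fun j => h j)

theorem IsM.comm_diag {g g' : OO m F} {c c' : Ip m → F} {c₀ c₀' : F} (h : IsM g 1 c c₀) (h' : IsM g' 1 c' c₀') :
    g * g' = g' * g := by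
  apply ext_ee
  intro k
  rw [act_mul, act_mul, h'.act_ee, act_smul, h.act_ee, h.act_ee, act_smul, h'.act_ee, smul_smul, smul_smul]
  have e : mkK 1 k = k := by
    rcases k with ⟨⟩ | v <;> rfl
  rw [e, mul_comm]

theorem mkK_one (k : Kd m) : mkK 1 k = k := by
  rcases k with ⟨⟩ | v <;> rfl

theorem IsM.conj_diag {g : OO m F} {c : Ip m → F} {c₀ : F} (h : IsM g 1 c c₀) (u : Ip m) (k : Kd m) (t : F) :
    g * XX u k t * g⁻¹ = XX u k (c u * ck c c₀ k * t) := by
  rw [h.conj_XX, mkK_one]
  rfl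

/-- Conjugating a diagonal element by a monomial element. -/
theorem IsM.conj_of_diag {g δ : OO m F} {π : Perm (Ip m)} {c d : Ip m → F} {c₀ d₀ : F} (hg : IsM g π c c₀)
    (hδ : IsM δ 1 d d₀) : IsM (g⁻¹ * δ * g) 1 (fun u => d (π u)) d₀ where
  inr u := by
    rw [act_mul, act_mul, hg.inr, act_smul, hδ.inr, smul_smul, Perm.one_apply, mul_comm, ← smul_smul, ← hg.inr,
      ← act_smul, act_inv_act]
    rfl
  inl := by
    rw [act_mul, act_mul, hg.inl, act_smul, hδ.inl, smul_smul, mul_comm, ← smul_smul, ← hg.inl, ← act_smul, act_inv_act]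

/-! ### Central extensions -/

/-- Central extensions of `Ω`. -/
structure CE (m : ℕ) (F : Type*) [Field F] (Γ : Type*) [Group Γ] where
  σ : Γ →* OO m F
  hk : σ.ker ≤ Subgroup.center Γ
  hm : ∀ x, σ x ∈ Om m F
  hs : ∀ g ∈ Om m F, ∃ x, σ x = g
  h2 : (2 : F) ≠ 0
  h3 : 3 ≤ m

namespace CE

variable {Γ : Type*} [Group Γ] (C : CE m F Γ)

theorem mem_center {x : Γ} (h : C.σ x = 1) : x ∈ Subgroup.center Γ := C.hk h

theorem map_cm (a b : Γ) : C.σ (cm a b) = cm (C.σ a) (C.σ b) := by
  simp only [cm, map_mul, map_inv]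

theorem cm_congr {a a' b b' : Γ} (ha : C.σ a = C.σ a') (hb : C.σ b = C.σ b') : cm a b = cm a' b' := by
  have h1 : a⁻¹ * a' ∈ Subgroup.center Γ := C.mem_center (by rw [map_mul, map_inv, ha, inv_mul_cancel])
  have h2 : b⁻¹ * b' ∈ Subgroup.center Γ := C.mem_center (by rw [map_mul, map_inv, hb, inv_mul_cancel])
  have e1 : a' = a * (a⁻¹ * a') := by group
  have e2 : b' = b * (b⁻¹ * b') := by group
  rw [e1, e2, cm_mul_central_left h1, cm_mul_central_right h2]

theorem cm_center {a b : Γ} (h : C.σ a * C.σ b = C.σ b * C.σ a) : cm a b ∈ Subgroup.center Γ := by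
  apply C.mem_center
  rw [C.map_cm, cm, h]
  group

variable [Fintype F]

theorem exists_lift_XX (u : Ip m) (k : Kd m) (t : F) : ∃ x, C.σ x = XX u k t :=
  C.hs _ (XX_mem C.h2 (by have := C.h3; omega) u k t)

/-- The flips. -/
def sg (a b : Fin m) (w : Ip m) : F := if idx w = a ∨ idx w = b then -1 else 1

theorem sg_eq (a b : Fin m) : dL (.inl a : Ip m) (.inl b) (-1 : F) = sg a b := by
  funext w
  rcases w with c | c <;> by_cases h1 : c = a <;> by_cases h2 : c = b <;> simp [dL, sg, h1, h2, inv_neg]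

theorem isM_flip {a b : Fin m} (hab : a ≠ b) :
    IsM (HL (.inl a : Ip m) (.inl b) (-1 : F)) 1 (sg a b) 1 := by
  rw [← sg_eq]
  exact isM_HL (by simpa using hab) (by simp) (neg_ne_zero.mpr one_ne_zero)

/-- The lift of a flip. -/
theorem exists_flip' {a b : Fin m} (hab : a ≠ b) : ∃ γ : Γ, IsM (C.σ γ) 1 (sg a b) (1 : F) := by
  obtain ⟨γ, hγ⟩ := C.hs _ (HL_mem (F := F) C.h2 (by have := C.h3; omega) (.inl a : Ip m) (.inl b) (-1))
  refine ⟨γ, ?_⟩
  rw [hγ]
  exact isM_flip hab

/-- Diagonal elements with a given value on a root. -/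
theorem exists_diag {u : Ip m} {k : Kd m} (hv : Val u k) {l : F} (hl : l ≠ 0) :
    ∃ (γ : Γ) (d : Ip m → F) (d₀ : F), IsM (C.σ γ) 1 d d₀ ∧ d u * ck d d₀ k = l := by
  have hm2 : 2 ≤ m := by have := C.h3; omega
  have key : ∀ w : Fin m, w ≠ idx u → (∀ v, k = .inr v → w ≠ idx v) →
      ∃ (γ : Γ) (d : Ip m → F) (d₀ : F), IsM (C.σ γ) 1 d d₀ ∧ d u * ck d d₀ k = l := by
    intro w hw hw2
    have h1 : u ≠ (.inl w : Ip m) := by
      rintro rfl
      exact hw rfl
    have h2 : u ≠ (Sum.swap (.inl w : Ip m)) := by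
      intro e
      apply hw
      rw [e]
      rfl
    obtain ⟨γ, hγ⟩ := C.hs _ (HL_mem (F := F) C.h2 hm2 u (.inl w) l)
    refine ⟨γ, dL u (.inl w) l, 1, ?_, ?_⟩
    · rw [hγ]
      exact isM_HL h1 h2 hl
    · rcases k with ⟨⟩ | v
      · simp [dL]
      · have hv1 : v ≠ u := fun e => hv.1 (by rw [e])
        have hv2 : v ≠ u.swap := fun e => hv.2 (by rw [e])
        have hw3 : w ≠ idx v := hw2 v rfl
        have hv3 : v ≠ .inl w := by
          rintro rfl
          exact hw3 rfl
        have hv4 : v ≠ .inr w := by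
          rintro rfl
          exact hw3 rfl
        simp [dL, hv1, hv2, hv3, hv4]
  rcases k with ⟨⟩ | v
  · obtain ⟨w, h1, -⟩ := exists_third C.h3 (idx u) (idx u)
    exact key w h1 (by simp)
  · obtain ⟨w, h1, h2⟩ := exists_third C.h3 (idx u) (idx v)
    refine key w h1 ?_
    intro v' e
    cases e
    exact h2

/-- Lifts of elements of a root group commute. -/
theorem comm_lifts {u : Ip m} {k : Kd m} (hv : Val u k) {a b : Γ} {s t : F} (ha : C.σ a = XX u k s)
    (hb : C.σ b = XX u k t) : cm a b = 1 := by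
  choose L hL using C.exists_lift_XX u k
  have hcen : ∀ s t, cm (L s) (L t) ∈ Subgroup.center Γ := by
    intro s t
    apply C.cm_center
    rw [hL, hL, ← XX_add, ← XX_add, add_comm]
  have hl : ∀ s t, L (s + t) = L s * L t * (L t)⁻¹ * (L s)⁻¹ * L (s + t) := by
    intro s t
    group
  have key : ∀ s t, cm (L s) (L t) = 1 := by
    refine bi_trivial (ω := fun s t => cm (L s) (L t)) C.h2 ?_ ?_ ?_ ?_
    · intro s s' t
      have e : cm (L (s + s')) (L t) = cm (L s' * L s) (L t) :=
        C.cm_congr (by rw [map_mul, hL, hL, hL, ← XX_add, add_comm]) rfl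
      rw [e, cm_mul_left (hcen s t)]
    · intro s t t'
      have e : cm (L s) (L (t + t')) = cm (L s) (L t * L t') :=
        C.cm_congr rfl (by rw [map_mul, hL, hL, hL, ← XX_add])
      rw [e, cm_mul_right (hcen s t')]
    · intro l hl0 s t
      obtain ⟨γ, d, d₀, hγ, hχ⟩ := C.exists_diag hv hl0
      have e := conj_central γ (hcen s t)
      rw [cm_conj] at e
      rw [← e]
      refine C.cm_congr ?_ ?_
      · rw [hL, map_mul, map_mul, map_inv, hL, hγ.conj_diag, hχ]
      · rw [hL, map_mul, map_mul, map_inv, hL, hγ.conj_diag, hχ]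
    · intro s
      exact cm_self _
  rw [C.cm_congr (ha.trans (hL s).symm) (hb.trans (hL t).symm), key]

/-- Good lifts of root groups. -/
structure IsGood (u : Ip m) (k : Kd m) (y : F → Γ) : Prop where
  map : ∀ t, C.σ (y t) = XX u k t
  add : ∀ s t, y (s + t) = y s * y t
  conj : ∀ (γ : Γ) (d : Ip m → F) (d₀ : F), IsM (C.σ γ) 1 d d₀ → ∀ t, γ * y t * γ⁻¹ = y (d u * ck d d₀ k * t)

/-- Existence of good lifts. -/
theorem exists_good {u : Ip m} {k : Kd m} (hv : Val u k) : ∃ y : F → Γ, C.IsGood u k y := by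
  choose L hL using C.exists_lift_XX u k
  obtain ⟨γ₀, d, d₀, h0, hχ⟩ := C.exists_diag hv (l := (-1 : F)) (neg_ne_zero.mpr one_ne_zero)
  have hmap : ∀ t, C.σ (cm (L (t / 2)) γ₀) = XX u k t := by
    intro t
    rw [C.map_cm, hL, cm]
    have e : XX u k (t / 2) * C.σ γ₀ * (XX u k (t / 2))⁻¹ * (C.σ γ₀)⁻¹ =
        XX u k (t / 2) * (C.σ γ₀ * XX u k (-(t / 2)) * (C.σ γ₀)⁻¹) := by
      rw [XX_neg]
      group
    rw [e, h0.conj_diag, hχ, ← XX_add]
    congr 1
    have := C.h2
    field_simp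
    try ring
  refine ⟨fun t => cm (L (t / 2)) γ₀, hmap, ?_, ?_⟩
  · intro s t
    have e : cm (L ((s + t) / 2)) γ₀ = cm (L (s / 2) * L (t / 2)) γ₀ :=
      C.cm_congr (by rw [map_mul, hL, hL, hL, ← XX_add, add_div]) rfl
    show cm (L ((s + t) / 2)) γ₀ = cm (L (s / 2)) γ₀ * cm (L (t / 2)) γ₀
    rw [e]
    have h1 : cm (L (s / 2)) (cm (L (t / 2)) γ₀) = 1 := C.comm_lifts hv (hL _) (hmap t)
    have h2 : cm (cm (L (s / 2)) γ₀) (cm (L (t / 2)) γ₀) = 1 := C.comm_lifts hv (hmap s) (hmap t)
    have h3 := commute_of_cm h1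
    have h4 := commute_of_cm h2
    have e2 : cm (L (s / 2) * L (t / 2)) γ₀ =
        L (s / 2) * cm (L (t / 2)) γ₀ * (L (s / 2))⁻¹ * cm (L (s / 2)) γ₀ := by
      simp only [cm]
      group
    rw [e2, h3, mul_inv_cancel_right, h4]
  · intro γ d' d₀' hγ t
    show γ * cm (L (t / 2)) γ₀ * γ⁻¹ = cm (L (d' u * ck d' d₀' k * t / 2)) γ₀
    rw [cm_conj]
    refine C.cm_congr ?_ ?_
    · rw [map_mul, map_mul, map_inv, hL, hL, hγ.conj_diag]
      congr 1
      ring
    · rw [map_mul, map_mul, map_inv, hγ.comm_diag h0]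
      group

/-- Uniqueness of good lifts. -/
theorem good_unique {u : Ip m} {k : Kd m} (hv : Val u k) {y y' : F → Γ} (h : C.IsGood u k y) (h' : C.IsGood u k y')
    (t : F) : y t = y' t := by
  have hc : ∀ t, (y t)⁻¹ * y' t ∈ Subgroup.center Γ := by
    intro t
    apply C.mem_center
    rw [map_mul, map_inv, h.map, h'.map, inv_mul_cancel]
  obtain ⟨γ₀, d, d₀, h0, hχ⟩ := C.exists_diag hv (l := (-1 : F)) (neg_ne_zero.mpr one_ne_zero)
  have key := add_neg_trivial (c := fun t => (y t)⁻¹ * y' t) C.h2 ?_ ?_ t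
  · have := mul_eq_one_iff_eq_inv.mp key
    exact inv_injective this
  · intro s t
    rw [h.add, h'.add]
    have h1 := Subgroup.mem_center_iff.mp (hc s) (y' t)
    calc (y s * y t)⁻¹ * (y' s * y' t) = (y t)⁻¹ * ((y s)⁻¹ * y' s * y' t) := by group
      _ = (y t)⁻¹ * (y' t * ((y s)⁻¹ * y' s)) := by rw [h1]
      _ = ((y t)⁻¹ * y' t) * ((y s)⁻¹ * y' s) := by group
      _ = _ := by rw [Subgroup.mem_center_iff.mp (hc s) _]
  · intro s
    have e1 := h.conj γ₀ d d₀ h0 s
    have e2 := h'.conj γ₀ d d₀ h0 s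
    rw [hχ, neg_one_mul] at e1 e2
    rw [← e1, ← e2]
    have := conj_central γ₀ (hc s)
    rw [← this]
    group

/-- The good lifts. -/
noncomputable def xt (u : Ip m) (k : Kd m) (t : F) : Γ := by
  classical
  exact if h : Val u k then Classical.choose (C.exists_good h) t else 1

theorem xt_good {u : Ip m} {k : Kd m} (hv : Val u k) : C.IsGood u k (C.xt u k) := by
  have e : C.xt u k = Classical.choose (C.exists_good hv) := by
    funext t
    simp only [xt, dif_pos hv]
  rw [e]
  exact Classical.choose_spec (C.exists_good hv)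

theorem eq_xt {u : Ip m} {k : Kd m} (hv : Val u k) {y : F → Γ} (h : C.IsGood u k y) (t : F) : y t = C.xt u k t :=
  C.good_unique hv h (C.xt_good hv) t

theorem xt_map {u : Ip m} {k : Kd m} (hv : Val u k) (t : F) : C.σ (C.xt u k t) = XX u k t :=
  (C.xt_good hv).map t

theorem xt_add {u : Ip m} {k : Kd m} (hv : Val u k) (s t : F) : C.xt u k (s + t) = C.xt u k s * C.xt u k t :=
  (C.xt_good hv).add s t

theorem xt_zero {u : Ip m} {k : Kd m} (hv : Val u k) : C.xt u k (0 : F) = 1 := by
  have := C.xt_add hv (0 : F) 0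
  rw [add_zero] at this
  exact mul_eq_left.mp this.symm

theorem xt_neg {u : Ip m} {k : Kd m} (hv : Val u k) (t : F) : C.xt u k (-t) = (C.xt u k t)⁻¹ := by
  apply eq_inv_of_mul_eq_one_left
  rw [← C.xt_add hv, neg_add_cancel, C.xt_zero hv]

theorem xt_conj_diag {u : Ip m} {k : Kd m} (hv : Val u k) {γ : Γ} {d : Ip m → F} {d₀ : F} (h : IsM (C.σ γ) 1 d d₀)
    (t : F) : γ * C.xt u k t * γ⁻¹ = C.xt u k (d u * ck d d₀ k * t) :=
  (C.xt_good hv).conj γ d d₀ h t

theorem val_image {g : OO m F} {π : Perm (Ip m)} {c : Ip m → F} {c₀ : F} (h : IsM g π c c₀) {u : Ip m} {k : Kd m}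
    (hv : Val u k) : Val (π u) (mkK π k) := by
  constructor
  · intro e
    apply hv.1
    rcases k with ⟨⟩ | v
    · simp at e
    · rw [mkK_inr] at e
      rw [π.injective (Sum.inr_injective e)]
  · intro e
    apply hv.2
    rcases k with ⟨⟩ | v
    · simp at e
    · rw [mkK_inr, ← h.swap_eq] at e
      rw [π.injective (Sum.inr_injective e)]

/-- **Transport**: conjugation of the good lifts by a lift of a monomial element. -/
theorem xt_conj {u : Ip m} {k : Kd m} (hv : Val u k) {γ : Γ} {π : Perm (Ip m)} {c : Ip m → F} {c₀ : F}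
    (h : IsM (C.σ γ) π c c₀) (t : F) :
    γ * C.xt u k t * γ⁻¹ = C.xt (π u) (mkK π k) (c u * ck c c₀ k * t) := by
  have hκ : c u * ck c c₀ k ≠ 0 := by
    refine mul_ne_zero (h.ne u) ?_
    rcases k with ⟨⟩ | v
    · exact h.ne0
    · exact h.ne v
  set κ := c u * ck c c₀ k with hκd
  have hg : C.IsGood (π u) (mkK π k) (fun t => γ * C.xt u k (κ⁻¹ * t) * γ⁻¹) := by
    refine ⟨?_, ?_, ?_⟩
    · intro t
      rw [map_mul, map_mul, map_inv, C.xt_map hv, h.conj_XX, ← hκd, mul_inv_cancel_left₀ hκ]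
    · intro s t
      rw [mul_add, C.xt_add hv]
      group
    · intro δ d d₀ hδ t
      have h1 : IsM (C.σ (γ⁻¹ * δ * γ)) 1 (fun w => d (π w)) d₀ := by
        rw [map_mul, map_mul, map_inv]
        exact h.conj_of_diag hδ
      have h2 := C.xt_conj_diag hv h1 (κ⁻¹ * t)
      have e : δ * (γ * C.xt u k (κ⁻¹ * t) * γ⁻¹) * δ⁻¹ =
          γ * ((γ⁻¹ * δ * γ) * C.xt u k (κ⁻¹ * t) * (γ⁻¹ * δ * γ)⁻¹) * γ⁻¹ := by
        group
      rw [e, h2]
      congr 3
      have e3 : ck (fun w => d (π w)) d₀ k = ck d d₀ (mkK π k) := by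
        rcases k with ⟨⟩ | v <;> rfl
      rw [e3]
      ring
  have := C.eq_xt (val_image h hv) hg (κ * t)
  rw [← this, inv_mul_cancel_left₀ hκ]

end CE

end Cfsg.Agent.Lib.SpinB
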