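import Mathlib
import Cfsg.Agent.Lib.SpinB.Good

/-!
# The commutator relations of the root elements in the odd orthogonal group
-/

set_option autoImplicit false
set_option linter.unusedSectionVars false
set_option linter.unusedSimpArgs false
set_option linter.unusedVariables false

namespace Cfsg.Agent.Lib.SpinB

open Matrix QuadraticMap Equiv
open Cfsg.Agent.Lib.Classical.Orth.Basic
open Cfsg.Agent.Lib.Classical.Orth.Models
open Cfsg.Agent.Lib.Classical.Orth.Siegel
open Cfsg.Agent.Lib.Classical.Orth.Generation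
open Cfsg.Agent.Lib.Sporadic.Stem

variable {m : ℕ} {F : Type*} [Field F]

/-- The action of a long root element. -/
theorem act_long {u v : Ip m} (h : v ≠ u.swap) (t : F) (x : Kd m → F) :
    act (XX u (.inr v) t) x = x + (x (.inr u.swap) * t) • ee (.inr v) - (t * x (.inr v.swap)) • ee (.inr u) := by
  rw [act_XX (fun e => h (Sum.inr_injective e))]
  simp only [cc_inr, qk_inr, bar_inr, mul_zero, zero_mul, zero_smul, sub_zero, one_mul]
  module

/-- The action of a short root element. -/
theorem act_short (u : Ip m) (t : F) (x : Kd m → F) :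
    act (XX u zr t) x = x + (x (.inr u.swap) * t) • ee zr - (t * 2 * x zr) • ee (.inr u)
      - (t * t * x (.inr u.swap)) • ee (.inr u) := by
  rw [act_XX (by simp)]
  simp only [cc_inl, qk_inl, bar_inl, mul_one]
  module

theorem ee_inr_ne {v w : Ip m} (h : v ≠ w) : (ee (.inr w) : Kd m → F) (.inr v) = 0 := by
  rw [ee_apply, if_neg (fun e => h (Sum.inr_injective e))]

theorem ee_zr_inr (v : Ip m) : (ee zr : Kd m → F) (.inr v) = 0 := by
  rw [ee_apply, if_neg (by simp)]

theorem ee_inr_zr (v : Ip m) : (ee (.inr v) : Kd m → F) zr = 0 := by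
  rw [ee_apply, if_neg (by simp)]

theorem ee_inr_self (v : Ip m) : (ee (.inr v) : Kd m → F) (.inr v) = 1 := ee_self _

theorem ee_zr_self : (ee zr : Kd m → F) zr = 1 := ee_self _

theorem ee_idx {v w : Ip m} (h : idx v ≠ idx w) : (ee (.inr w) : Kd m → F) (.inr v) = 0 :=
  ee_inr_ne (fun e => h (by rw [e]))

theorem ee_swap1 (v : Ip m) : (ee (.inr v.swap) : Kd m → F) (.inr v) = 0 := ee_inr_ne (swap_ne v).symm

theorem ee_swap2 (v : Ip m) : (ee (.inr v) : Kd m → F) (.inr v.swap) = 0 := ee_inr_ne (swap_ne v)

theorem sw_idx {u v : Ip m} (h : idx u ≠ idx v) : v ≠ u.swap := fun e => h (by rw [e, idx_swap])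

theorem sw_idx' {u v : Ip m} (h : idx u ≠ idx v) : v.swap ≠ u.swap := fun e => h (by
  have := congrArg idx e
  simpa using this.symm)

section Real

variable {u v w x : Ip m} (s t : F)

/-- `T2` in the orthogonal group. -/
theorem real_T2 (h1 : idx u ≠ idx v) (h2 : idx u ≠ idx w) (h3 : idx v ≠ idx w) :
    XX u (.inr v) s * XX v.swap (.inr w) t = XX u (.inr w) (-(s * t)) * XX v.swap (.inr w) t * XX u (.inr v) s := by
  apply ext_ee
  intro k
  simp only [act_mul]
  have a1 : w ≠ (v.swap).swap := by rw [Sum.swap_swap]; exact fun e => h3 (by rw [e])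
  simp only [act_long (sw_idx h1), act_long (sw_idx h2), act_long a1, Pi.add_apply, Pi.sub_apply, Pi.smul_apply, smul_eq_mul,
    Sum.swap_swap, ee_idx, ee_swap1, ee_swap2, idx_swap, h1, h2, h3, h1.symm, h2.symm, h3.symm, ee_inr_self, ne_eq, not_false_eq_true,
    mul_zero, zero_mul, add_zero, sub_zero, mul_one, one_mul]
  module

/-- `T3` in the orthogonal group. -/
theorem real_T3 (h1 : idx u ≠ idx v) :
    XX u zr s * XX v zr t = XX u (.inr v) (2 * s * t) * XX v zr t * XX u zr s := by
  apply ext_ee
  intro k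
  simp only [act_mul]
  simp only [act_long (sw_idx h1), act_short, Pi.add_apply, Pi.sub_apply, Pi.smul_apply, smul_eq_mul,
    Sum.swap_swap, ee_idx, ee_swap1, ee_swap2, ee_inr_zr, ee_zr_inr, ee_zr_self, idx_swap, h1, h1.symm, ee_inr_self, ne_eq, not_false_eq_true,
    mul_zero, zero_mul, add_zero, sub_zero, mul_one, one_mul]
  module

/-- `T4` in the orthogonal group. -/
theorem real_T4 (h1 : idx u ≠ idx v) :
    XX u (.inr v) s * XX v.swap zr t =
      XX u zr (-(s * t)) * XX u (.inr v.swap) (s * t * t) * XX v.swap zr t * XX u (.inr v) s := by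
  apply ext_ee
  intro k
  simp only [act_mul]
  have a1 : v.swap ≠ u.swap := sw_idx' h1
  simp only [act_long (sw_idx h1), act_long a1, act_short, Pi.add_apply, Pi.sub_apply, Pi.smul_apply, smul_eq_mul,
    Sum.swap_swap, ee_idx, ee_swap1, ee_swap2, ee_inr_zr, ee_zr_inr, ee_zr_self, idx_swap, h1, h1.symm, ee_inr_self, ne_eq, not_false_eq_true,
    mul_zero, zero_mul, add_zero, sub_zero, mul_one, one_mul]
  module

/-- Short and long root elements with the same first coordinate commute. -/
theorem real_sl (h1 : idx u ≠ idx v) :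
    XX u zr s * XX u (.inr v) t = XX u (.inr v) t * XX u zr s := by
  apply ext_ee
  intro k
  simp only [act_mul]
  simp only [act_long (sw_idx h1), act_short, Pi.add_apply, Pi.sub_apply, Pi.smul_apply, smul_eq_mul,
    Sum.swap_swap, ee_idx, ee_swap1, ee_swap2, ee_inr_zr, ee_zr_inr, ee_zr_self, idx_swap, h1, h1.symm, ee_inr_self, ne_eq, not_false_eq_true,
    mul_zero, zero_mul, add_zero, sub_zero, mul_one, one_mul]
  module

/-- Long root elements with the same first coordinate commute. -/
theorem real_ll (h1 : idx u ≠ idx v) (h2 : idx u ≠ idx w) (h3 : idx v ≠ idx w) :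
    XX u (.inr v) s * XX u (.inr w) t = XX u (.inr w) t * XX u (.inr v) s := by
  apply ext_ee
  intro k
  simp only [act_mul]
  simp only [act_long (sw_idx h1), act_long (sw_idx h2), Pi.add_apply, Pi.sub_apply, Pi.smul_apply, smul_eq_mul,
    Sum.swap_swap, ee_idx, ee_swap1, ee_swap2, idx_swap, h1, h2, h3, h1.symm, h2.symm, h3.symm, ee_inr_self, ne_eq, not_false_eq_true,
    mul_zero, zero_mul, add_zero, sub_zero, mul_one, one_mul]
  module

/-- Long root elements with the same first coordinate and opposite second coordinates commute. -/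
theorem real_opp (h1 : idx u ≠ idx v) :
    XX u (.inr v) s * XX u (.inr v.swap) t = XX u (.inr v.swap) t * XX u (.inr v) s := by
  apply ext_ee
  intro k
  simp only [act_mul]
  have a1 : v.swap ≠ u.swap := sw_idx' h1
  simp only [act_long (sw_idx h1), act_long a1, Pi.add_apply, Pi.sub_apply, Pi.smul_apply, smul_eq_mul,
    Sum.swap_swap, ee_idx, ee_swap1, ee_swap2, idx_swap, h1, h1.symm, ee_inr_self, ne_eq, not_false_eq_true,
    mul_zero, zero_mul, add_zero, sub_zero, mul_one, one_mul]
  module

/-- A short root element commutes with a far away long root element. -/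
theorem real_far_s (h1 : idx u ≠ idx v) (h2 : idx u ≠ idx w) (h3 : idx v ≠ idx w) :
    XX u zr s * XX v (.inr w) t = XX v (.inr w) t * XX u zr s := by
  apply ext_ee
  intro k
  simp only [act_mul]
  simp only [act_long (sw_idx h3), act_short, Pi.add_apply, Pi.sub_apply, Pi.smul_apply, smul_eq_mul,
    Sum.swap_swap, ee_idx, ee_swap1, ee_swap2, ee_inr_zr, ee_zr_inr, ee_zr_self, idx_swap, h1, h2, h3, h1.symm, h2.symm, h3.symm, ee_inr_self, ne_eq, not_false_eq_true,
    mul_zero, zero_mul, add_zero, sub_zero, mul_one, one_mul]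
  module

end Real

end Cfsg.Agent.Lib.SpinB
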