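import Mathlib
import Cfsg.Agent.Lib.SpinB.RealRel

/-!
# Central extensions of the odd orthogonal groups: the commutator relations of the good lifts
-/

set_option autoImplicit false
set_option linter.unusedSectionVars false
set_option linter.unusedSimpArgs false
set_option linter.unusedVariables false

namespace Cfsg.Agent.Lib.SpinB

open Matrix QuadraticMap Equiv
open Cfsg.Agent.Lib.Classical.Orth.Basic
open Cfsg.Agent.Lib.Classical.Orth.Models
open Cfsg.Agent.Lib.Classical.Orth.Siegel
open Cfsg.Agent.Lib.Classical.Orth.Generation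
open Cfsg.Agent.Lib.Sporadic.Stem

variable {m : ℕ} {F : Type*} [Field F]

theorem val_zr (u : Ip m) : Val u zr := ⟨by simp, by simp⟩

theorem val_long {u v : Ip m} (h : idx u ≠ idx v) : Val u (.inr v) :=
  ⟨fun e => h (by rw [Sum.inr_injective e]), fun e => h (by rw [Sum.inr_injective e, idx_swap])⟩

/-- An additive function invariant under a scalar is trivial. -/
theorem scale_trivial {A : Type*} [Group A] {c : F → A} (hadd : ∀ s t, c (s + t) = c s * c t) {l : F} (hl : l ≠ 1)
    (h : ∀ s, c (l * s) = c s) (s : F) : c s = 1 := by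
  have h0 : c 0 = 1 := by
    have := hadd 0 0
    rw [add_zero] at this
    exact mul_eq_left.mp this.symm
  have hn : ∀ t, c (-t) = (c t)⁻¹ := by
    intro t
    apply eq_inv_of_mul_eq_one_left
    rw [← hadd, neg_add_cancel, h0]
  have hl' : l - 1 ≠ 0 := sub_ne_zero.mpr hl
  have key : ∀ t, c ((l - 1) * t) = 1 := by
    intro t
    have e : (l - 1) * t = l * t + -t := by ring
    rw [e, hadd, hn, h, mul_inv_cancel]
  have e : s = (l - 1) * (s / (l - 1)) := by
    field_simp
  rw [e]
  exact key _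

/-- A biadditive function with the flip and scaling symmetries is trivial. -/
theorem bi_flip_trivial (h2 : (2 : F) ≠ 0) {A : Type*} [Group A] {ω : F → F → A}
    (h1 : ∀ s s' t, ω (s + s') t = ω s t * ω s' t) (h3 : ∀ s t t', ω s (t + t') = ω s t * ω s t')
    (hf : ∀ r s, ω r s = (ω s r)⁻¹) (hs : ∀ y : F, y ≠ 0 → ∀ r s, ω (y * r) (y⁻¹ * s) = ω r s) (r s : F) : ω r s = 1 := by
  have z1 : ∀ t, ω 0 t = 1 := by
    intro t
    have := h1 0 0 t
    rw [add_zero] at this
    exact mul_eq_left.mp this.symm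
  have z2 : ∀ s, ω s 0 = 1 := by
    intro s
    have := h3 s 0 0
    rw [add_zero] at this
    exact mul_eq_left.mp this.symm
  have n2 : ∀ s t, ω s (-t) = (ω s t)⁻¹ := by
    intro s t
    apply eq_inv_of_mul_eq_one_left
    rw [← h3, neg_add_cancel, z2]
  have self2 : ∀ x, ω x x * ω x x = 1 := by
    intro x
    have := hf x x
    nth_rw 2 [this]
    exact mul_inv_cancel _
  have self : ∀ x, ω x x = 1 := by
    intro x
    have e1 := hs 2 h2 (x / 2) (2 * x)
    have e2 : (2 : F) * (x / 2) = x := by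
      field_simp
    have e3 : (2 : F)⁻¹ * (2 * x) = x := by
      field_simp
    rw [e2, e3] at e1
    rw [e1]
    have e4 : 2 * x = x / 2 + x / 2 + (x / 2 + x / 2) := by
      field_simp
      ring
    rw [e4, h3, h3]
    have := self2 (x / 2)
    rw [this, one_mul]
  have sq : ∀ r y, ω r (r * y * y) = 1 := by
    intro r y
    by_cases hy : y = 0
    · rw [hy, mul_zero, z2]
    · have e1 := hs y hy r (r * y * y)
      have e2 : y⁻¹ * (r * y * y) = y * r := by
        field_simp
      rw [e2, self] at e1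
      exact e1.symm
  by_cases hr : r = 0
  · rw [hr, z1]
  · have e : s = r * ((s / r + 1) / 2) * ((s / r + 1) / 2) + -(r * ((s / r - 1) / 2) * ((s / r - 1) / 2)) := by
      field_simp
      ring
    rw [e, h3, n2, sq, sq, inv_one, one_mul]

/-- The relation from additivity and a scalar symmetry. -/
theorem rel_left {Γ : Type*} [Group Γ] {y E : F → Γ} {b γ : Γ} {l : F} (hl : l ≠ 1)
    (hy : ∀ s s', y (s + s') = y s * y s') (hE : ∀ s s', E (s + s') = E s * E s')
    (hyE : ∀ s s', y s * E s' = E s' * y s)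
    (hc : ∀ s, cm (y s) b * (E s)⁻¹ ∈ Subgroup.center Γ)
    (h1 : ∀ s, γ * y s * γ⁻¹ = y (l * s)) (h2 : γ * b * γ⁻¹ = b) (h3 : ∀ s, γ * E s * γ⁻¹ = E (l * s)) (s : F) :
    cm (y s) b = E s := by
  have key := scale_trivial (c := fun s => cm (y s) b * (E s)⁻¹) ?_ hl ?_ s
  · exact mul_inv_eq_one.mp key
  · intro s s'
    have e0 : ∀ s, cm (y s) b = (cm (y s) b * (E s)⁻¹) * E s := by
      intro s
      group
    have e1 : cm (y s * y s') b = y s * cm (y s') b * (y s)⁻¹ * cm (y s) b := by
      simp only [cm]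
      group
    have e2 : y s * cm (y s') b * (y s)⁻¹ = (cm (y s') b * (E s')⁻¹) * E s' := by
      nth_rw 1 [e0 s']
      have h4 := conj_central (y s) (hc s')
      calc y s * ((cm (y s') b * (E s')⁻¹) * E s') * (y s)⁻¹
          = (y s * (cm (y s') b * (E s')⁻¹) * (y s)⁻¹) * (y s * E s' * (y s)⁻¹) := by group
        _ = _ := by rw [h4, hyE, mul_inv_cancel_right]
    rw [hy, e1, e2, hE]
    have hcomm : E s' * E s = E s * E s' := by
      rw [← hE, ← hE, add_comm]
    have hz := Subgroup.mem_center_iff.mp (hc s)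
    set C1 := cm (y s) b * (E s)⁻¹ with hC1
    set C2 := cm (y s') b * (E s')⁻¹ with hC2
    have e3 : cm (y s) b = C1 * E s := by
      rw [hC1]
      group
    rw [e3]
    calc C2 * E s' * (C1 * E s) * (E s * E s')⁻¹ = C2 * (E s' * C1) * E s * (E s * E s')⁻¹ := by group
      _ = C2 * (C1 * E s') * E s * (E s * E s')⁻¹ := by rw [hz]
      _ = C2 * C1 * (E s' * E s) * (E s * E s')⁻¹ := by group
      _ = C2 * C1 := by rw [hcomm]; group
      _ = C1 * C2 := by rw [hz]
  · intro s
    have := conj_central γ (hc s)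
    rw [← this]
    have e : γ * (cm (y s) b * (E s)⁻¹) * γ⁻¹ = cm (γ * y s * γ⁻¹) (γ * b * γ⁻¹) * (γ * E s * γ⁻¹)⁻¹ := by
      simp only [cm]
      group
    rw [e, h1, h2, h3]

theorem neg_ne (h2 : (2 : F) ≠ 0) : (-1 : F) ≠ 1 := by
  intro e
  apply h2
  linear_combination -e

theorem cm_inv_inv {Γ : Type*} [Group Γ] {a b : Γ} (h : cm a b ∈ Subgroup.center Γ) : cm a⁻¹ b⁻¹ = cm a b := by
  have hz := Subgroup.mem_center_iff.mp h
  have e : a * b = cm a b * (b * a) := by
    simp only [cm]
    group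
  calc cm a⁻¹ b⁻¹ = a⁻¹ * b⁻¹ * (a * b) := by
        simp only [cm]
        group
    _ = a⁻¹ * b⁻¹ * (cm a b * (b * a)) := by rw [e]
    _ = (a⁻¹ * b⁻¹ * cm a b) * (b * a) := by group
    _ = (cm a b * (a⁻¹ * b⁻¹)) * (b * a) := by rw [← hz]
    _ = cm a b := by group

namespace CE

variable {Γ : Type*} [Group Γ] (C : CE m F Γ) [Fintype F]

/-- The symmetry of the names of the long roots. -/
theorem xt_symm {u v : Ip m} (h : idx u ≠ idx v) (t : F) : C.xt u (.inr v) t = C.xt v (.inr u) (-t) := by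
  have hv : Val u (.inr v) := val_long h
  have hv' : Val v (.inr u) := val_long h.symm
  have hg : C.IsGood u (.inr v) (fun t => C.xt v (.inr u) (-t)) := by
    refine ⟨?_, ?_, ?_⟩
    · intro t
      rw [C.xt_map hv', XX_symm (sw_idx h) t]
    · intro s t
      rw [neg_add, C.xt_add hv']
    · intro γ d d₀ hγ t
      rw [C.xt_conj_diag hv' hγ]
      congr 1
      simp only [ck_inr]
      ring
  exact (C.eq_xt hv hg t).symm

/-- Commutation from a scalar symmetry. -/
theorem comm_scale {u v : Ip m} {k l : Kd m} (h1 : Val u k) (h2 : Val v l)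
    (hc : ∀ s t : F, XX u k s * XX v l t = XX v l t * XX u k s) {γ : Γ} {d : Ip m → F} {d₀ : F}
    (hγ : IsM (C.σ γ) 1 d d₀) {r : F} (hr : d u * ck d d₀ k = r) (hr1 : r ≠ 1) (hr2 : d v * ck d d₀ l = 1) (s t : F) :
    C.xt u k s * C.xt v l t = C.xt v l t * C.xt u k s := by
  have hz : ∀ s, cm (C.xt u k s) (C.xt v l t) ∈ Subgroup.center Γ := by
    intro s
    apply C.cm_center
    rw [C.xt_map h1, C.xt_map h2, hc]
  have key := scale_trivial (c := fun s => cm (C.xt u k s) (C.xt v l t)) ?_ hr1 ?_ s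
  · exact commute_of_cm key
  · intro s s'
    rw [C.xt_add h1, cm_mul_left (hz s')]
    exact Subgroup.mem_center_iff.mp (hz s) _
  · intro s
    have := conj_central γ (hz s)
    rw [← this, cm_conj, C.xt_conj_diag h1 hγ, C.xt_conj_diag h2 hγ, hr, hr2, one_mul]

/-- The short root element and a long root element with the same first coordinate commute. -/
theorem comm_sl {u v : Ip m} (h : idx u ≠ idx v) (s t : F) :
    C.xt u zr s * C.xt u (.inr v) t = C.xt u (.inr v) t * C.xt u zr s := by
  obtain ⟨γ, hγ⟩ := C.exists_flip' h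
  refine C.comm_scale (val_zr u) (val_long h) (fun s t => real_sl s t h) hγ (r := -1) ?_ (neg_ne C.h2) ?_ s t
  · simp [sg]
  · simp [sg]

/-- The long root elements with the same first coordinate commute. -/
theorem comm_ll {u v w : Ip m} (h1 : idx u ≠ idx v) (h2 : idx u ≠ idx w) (h3 : idx v ≠ idx w) (s t : F) :
    C.xt u (.inr v) s * C.xt u (.inr w) t = C.xt u (.inr w) t * C.xt u (.inr v) s := by
  obtain ⟨γ, hγ⟩ := C.exists_flip' h1
  refine (C.comm_scale (val_long h2) (val_long h1) (fun s t => (real_ll t s h1 h2 h3).symm) hγ (r := -1) ?_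
    (neg_ne C.h2) ?_ t s).symm
  · simp [sg, h2.symm, h3.symm]
  · simp [sg]

/-- A short root element and a far away long root element commute. -/
theorem comm_far_s (H : 4 ≤ m ∨ ∃ n : F, n ≠ 0 ∧ n * n ≠ 1) {u v w : Ip m} (h1 : idx u ≠ idx v) (h2 : idx u ≠ idx w)
    (h3 : idx v ≠ idx w) (s t : F) :
    C.xt u zr s * C.xt v (.inr w) t = C.xt v (.inr w) t * C.xt u zr s := by
  rcases H with H | ⟨n, n0, n1⟩
  · obtain ⟨d, d1, d2, d3⟩ := exists_fourth H (idx u) (idx v) (idx w)
    obtain ⟨γ, hγ⟩ := C.exists_flip' d1.symm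
    refine C.comm_scale (val_zr u) (val_long h3) (fun s t => real_far_s s t h1 h2 h3) hγ (r := -1) ?_ (neg_ne C.h2) ?_ s t
    · simp [sg]
    · simp [sg, h1.symm, h2.symm, d2.symm, d3.symm]
  · obtain ⟨γ, hγ⟩ := C.hs _ (HS_mem (F := F) C.h2 (by have := C.h3; omega) u n)
    have hM := isM_HS (F := F) u n0
    rw [← hγ] at hM
    refine C.comm_scale (val_zr u) (val_long h3) (fun s t => real_far_s s t h1 h2 h3) hM (r := n * n) ?_ n1 ?_ s t
    · simp [dS]
    · have a1 : v ≠ u := fun e => h1 (by rw [e])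
      have a2 : v ≠ u.swap := sw_idx h1
      have a3 : w ≠ u := fun e => h2 (by rw [e])
      have a4 : w ≠ u.swap := sw_idx h2
      simp [dS, a1, a2, a3, a4]

/-- Long root elements with the same first coordinate and opposite second coordinates commute. -/
theorem comm_opp {u v : Ip m} (h : idx u ≠ idx v) (r s : F) :
    C.xt u (.inr v) r * C.xt u (.inr v.swap) s = C.xt u (.inr v.swap) s * C.xt u (.inr v) r := by
  have h' : idx u ≠ idx v.swap := by rwa [idx_swap]
  have hz : ∀ r s, cm (C.xt u (.inr v) r) (C.xt u (.inr v.swap) s) ∈ Subgroup.center Γ := by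
    intro r s
    apply C.cm_center
    rw [C.xt_map (val_long h), C.xt_map (val_long h'), real_opp _ _ h]
  have key := bi_flip_trivial (ω := fun r s => cm (C.xt u (.inr v) r) (C.xt u (.inr v.swap) s)) C.h2 ?_ ?_ ?_ ?_ r s
  · exact commute_of_cm key
  · intro s s' t
    rw [C.xt_add (val_long h), cm_mul_left (hz s' t)]
    exact Subgroup.mem_center_iff.mp (hz s t) _
  · intro s t t'
    rw [C.xt_add (val_long h'), cm_mul_right (hz s t')]
  · intro r s
    have hm2 : 2 ≤ m := by have := C.h3; omega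
    obtain ⟨γ, hγ⟩ := C.hs _ (NN_mem (F := F) C.h2 hm2 v zr 1)
    have hM := isM_NN_short (F := F) v one_ne_zero
    rw [← hγ] at hM
    have a0 : v.swap ≠ v := swap_ne v
    have a1 : u ≠ v := fun e => h (by rw [e])
    have a2 : u ≠ v.swap := fun e => h (by rw [e, idx_swap])
    have a3 : swap v v.swap u = u := swap_apply_of_ne_of_ne a1 a2
    have c1 : cS v (1 : F) u = 1 := by simp [cS, a1, a2]
    have c2 : cS v (1 : F) v = -1 := by simp [cS]
    have c3 : cS v (1 : F) v.swap = -1 := by simp [cS, a0]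
    have z2 : cm (C.xt u (.inr v.swap) r) (C.xt u (.inr v) s) ∈ Subgroup.center Γ := by
      apply C.cm_center
      rw [C.xt_map (val_long h'), C.xt_map (val_long h), real_opp s r h]
    have := conj_central γ (hz r s)
    rw [cm_inv, ← this, cm_conj, C.xt_conj (val_long h) hM, C.xt_conj (val_long h') hM, a3, mkK_inr, mkK_inr, swap_apply_left,
      swap_apply_right, ck_inr, ck_inr, c1, c2, c3, one_mul, neg_one_mul, neg_one_mul, C.xt_neg (val_long h'),
      C.xt_neg (val_long h), cm_inv_inv z2]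
  · intro y hy r s
    obtain ⟨w, w1, w2⟩ := exists_third C.h3 (idx u) (idx v)
    have hm2 : 2 ≤ m := by have := C.h3; omega
    obtain ⟨γ, hγ⟩ := C.hs _ (HL_mem (F := F) C.h2 hm2 v (.inl w) y)
    have b1 : v ≠ .inl w := by
      rintro rfl
      exact w2 rfl
    have b2 : v ≠ .inr w := by
      rintro rfl
      exact w2 rfl
    have hM := isM_HL (F := F) b1 b2 hy
    rw [← hγ] at hM
    have a0 : v.swap ≠ v := swap_ne v
    have a1 : u ≠ v := fun e => h (by rw [e])
    have a2 : u ≠ v.swap := fun e => h (by rw [e, idx_swap])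
    have a3 : u ≠ .inl w := by
      rintro rfl
      exact w1 rfl
    have a4 : u ≠ .inr w := by
      rintro rfl
      exact w1 rfl
    have a5 : v.swap ≠ .inl w := fun e => w2 (by
      have := congrArg idx e
      simpa using this.symm)
    have a6 : v.swap ≠ .inr w := fun e => w2 (by
      have := congrArg idx e
      simpa using this.symm)
    have c1 : dL v (.inl w) y u = 1 := by simp [dL, a1, a2, a3, a4]
    have c2 : dL v (.inl w) y v = y := by simp [dL]
    have c3 : dL v (.inl w) y v.swap = y⁻¹ := by simp [dL, a0, a5]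
    have := conj_central γ (hz r s)
    rw [← this, cm_conj, C.xt_conj_diag (val_long h) hM, C.xt_conj_diag (val_long h') hM, ck_inr, ck_inr, c1, c2, c3, one_mul,
      one_mul]

/-- The relation between two short root elements. -/
theorem rel_T3 {u v : Ip m} (h : idx u ≠ idx v) (s t : F) :
    cm (C.xt u zr s) (C.xt v zr t) = C.xt u (.inr v) (2 * s * t) := by
  obtain ⟨w, w1, w2⟩ := exists_third C.h3 (idx v) (idx u)
  obtain ⟨γ, hγ⟩ := C.exists_flip' (a := idx v) (b := w) w1.symm
  have e1 := rel_left (y := fun t => C.xt v zr t) (E := fun t => C.xt u (.inr v) (-(2 * s * t))) (b := C.xt u zr s) (γ := γ)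
    (l := -1) (neg_ne C.h2) (fun t t' => C.xt_add (val_zr v) t t')
    (fun t t' => by
      rw [← C.xt_add (val_long h)]
      congr 1
      ring)
    (fun t t' => by
      rw [C.xt_symm h]
      exact C.comm_sl h.symm _ _)
    (fun t => by
      apply C.mem_center
      rw [map_mul, map_inv, C.map_cm, C.xt_map (val_zr v), C.xt_map (val_zr u), C.xt_map (val_long h), XX_neg, inv_inv, cm]
      have r1 := real_T3 s t h
      have r2 : XX v zr t * XX u zr s = (XX u (.inr v) (2 * s * t))⁻¹ * (XX u zr s * XX v zr t) := by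
        rw [r1]
        group
      rw [r2]
      group)
    (fun t => by
      rw [C.xt_conj_diag (val_zr v) hγ]
      congr 1
      simp [sg])
    (by
      rw [C.xt_conj_diag (val_zr u) hγ]
      congr 1
      simp [sg, h, w2.symm])
    (fun t => by
      rw [C.xt_conj_diag (val_long h) hγ]
      congr 1
      simp [sg, h, w2.symm]) t
  rw [← cm_inv, e1, ← C.xt_neg (val_long h), neg_neg]

/-- The relation between a long and a short root element. -/
theorem rel_T4 {u v : Ip m} (h : idx u ≠ idx v) (s t : F) :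
    cm (C.xt u (.inr v) s) (C.xt v.swap zr t) = C.xt u zr (-(s * t)) * C.xt u (.inr v.swap) (s * t * t) := by
  have h' : idx u ≠ idx v.swap := by rwa [idx_swap]
  obtain ⟨w, w1, w2⟩ := exists_third C.h3 (idx u) (idx v)
  obtain ⟨γ, hγ⟩ := C.exists_flip' (a := idx u) (b := w) w1.symm
  refine rel_left (y := fun s => C.xt u (.inr v) s) (E := fun s => C.xt u zr (-(s * t)) * C.xt u (.inr v.swap) (s * t * t)) (b := C.xt v.swap zr t) (γ := γ)
    (l := -1) (neg_ne C.h2) (fun t t' => C.xt_add (val_long h) t t') ?_ ?_ ?_ ?_ ?_ ?_ s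
  · intro s s'
    have e1 : -((s + s') * t) = -(s * t) + -(s' * t) := by ring
    have e2 : (s + s') * t * t = s * t * t + s' * t * t := by ring
    rw [e1, e2, C.xt_add (val_zr u), C.xt_add (val_long h')]
    have := C.comm_sl h' (-(s' * t)) (s * t * t)
    calc C.xt u zr (-(s * t)) * C.xt u zr (-(s' * t)) * (C.xt u (.inr v.swap) (s * t * t) * C.xt u (.inr v.swap) (s' * t * t))
        = C.xt u zr (-(s * t)) * (C.xt u zr (-(s' * t)) * C.xt u (.inr v.swap) (s * t * t)) * C.xt u (.inr v.swap) (s' * t * t) := by group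
      _ = _ := by rw [this]; group
  · intro s s'
    have c1 := (C.comm_sl h (-(s' * t)) s).symm
    have c2 := C.comm_opp h s (s' * t * t)
    calc C.xt u (.inr v) s * (C.xt u zr (-(s' * t)) * C.xt u (.inr v.swap) (s' * t * t))
        = (C.xt u (.inr v) s * C.xt u zr (-(s' * t))) * C.xt u (.inr v.swap) (s' * t * t) := by group
      _ = C.xt u zr (-(s' * t)) * (C.xt u (.inr v) s * C.xt u (.inr v.swap) (s' * t * t)) := by rw [c1]; group
      _ = _ := by rw [c2]; group
  · intro s
    apply C.mem_center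
    rw [map_mul, map_inv, map_mul, C.map_cm, C.xt_map (val_long h), C.xt_map (val_zr _), C.xt_map (val_zr _), C.xt_map (val_long h'), cm]
    have r1 := real_T4 s t h
    rw [r1]
    group
  · intro s
    rw [C.xt_conj_diag (val_long h) hγ]
    congr 1
    simp [sg, h.symm, w2.symm]
  · rw [C.xt_conj_diag (val_zr _) hγ]
    congr 1
    simp [sg, h.symm, w2.symm]
  · intro s
    have e2 : γ * (C.xt u zr (-(s * t)) * C.xt u (.inr v.swap) (s * t * t)) * γ⁻¹ =
        (γ * C.xt u zr (-(s * t)) * γ⁻¹) * (γ * C.xt u (.inr v.swap) (s * t * t) * γ⁻¹) := by group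
    rw [e2, C.xt_conj_diag (val_zr _) hγ, C.xt_conj_diag (val_long h') hγ]
    congr 2
    · simp [sg]
    · simp [sg, h.symm, w2.symm]

/-- The relation between two long root elements. -/
theorem rel_T2 {u v w : Ip m} (h1 : idx u ≠ idx v) (h2 : idx u ≠ idx w) (h3 : idx v ≠ idx w) (s t : F) :
    cm (C.xt u (.inr v) s) (C.xt v.swap (.inr w) t) = C.xt u (.inr w) (-(s * t)) := by
  have h3' : idx v.swap ≠ idx w := by rwa [idx_swap]
  obtain ⟨γ, hγ⟩ := C.exists_flip' h3
  refine rel_left (y := fun s => C.xt u (.inr v) s) (E := fun s => C.xt u (.inr w) (-(s * t))) (b := C.xt v.swap (.inr w) t) (γ := γ)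
    (l := -1) (neg_ne C.h2) (fun t t' => C.xt_add (val_long h1) t t') ?_ ?_ ?_ ?_ ?_ ?_ s
  · intro s s'
    rw [← C.xt_add (val_long h2)]
    congr 1
    ring
  · intro s s'
    exact C.comm_ll h1 h2 h3 _ _
  · intro s
    apply C.mem_center
    rw [map_mul, map_inv, C.map_cm, C.xt_map (val_long h1), C.xt_map (val_long h3'), C.xt_map (val_long h2), cm]
    have r1 := real_T2 s t h1 h2 h3
    rw [r1]
    group
  · intro s
    rw [C.xt_conj_diag (val_long h1) hγ]
    congr 1
    simp [sg, h1, h2]
  · rw [C.xt_conj_diag (val_long h3') hγ]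
    congr 1
    simp [sg]
  · intro s
    rw [C.xt_conj_diag (val_long h2) hγ]
    congr 1
    simp [sg, h1, h2]

/-- Far away long root elements commute. -/
theorem comm_far_l (H : 4 ≤ m) {u v w x : Ip m} (h1 : idx u ≠ idx v) (h2 : idx u ≠ idx w) (h3 : idx u ≠ idx x) (h4 : idx v ≠ idx w)
    (h5 : idx v ≠ idx x) (h6 : idx w ≠ idx x) (s t : F) :
    C.xt u (.inr v) s * C.xt w (.inr x) t = C.xt w (.inr x) t * C.xt u (.inr v) s := by
  have e : C.xt w (.inr x) t = cm (C.xt w zr (t / 2)) (C.xt x zr 1) := by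
    rw [C.rel_T3 h6]
    congr 1
    have := C.h2
    field_simp
  have c1 : Commute (C.xt u (.inr v) s) (C.xt w zr (t / 2)) := (C.comm_far_s (Or.inl H) h2.symm h4.symm h1 (t / 2) s).symm
  have c2 : Commute (C.xt u (.inr v) s) (C.xt x zr 1) := (C.comm_far_s (Or.inl H) h3.symm h5.symm h1 (1 : F) s).symm
  rw [e]
  exact ((c1.mul_right c2).mul_right c1.inv_right).mul_right c2.inv_right

end CE

end Cfsg.Agent.Lib.SpinB
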