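import Mathlib
import Cfsg.Agent.Lib.SpinB.Rel

/-!
# Central extensions of the odd orthogonal groups: the positive root elements
-/

set_option autoImplicit false
set_option linter.unusedSectionVars false
set_option linter.unusedSimpArgs false
set_option linter.unusedVariables false

namespace Cfsg.Agent.Lib.SpinB

open Matrix QuadraticMap Equiv
open Cfsg.Agent.Lib.Classical.Orth.Basic
open Cfsg.Agent.Lib.Classical.Orth.Models
open Cfsg.Agent.Lib.Classical.Orth.Siegel
open Cfsg.Agent.Lib.Classical.Orth.Generation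
open Cfsg.Agent.Lib.Sporadic.Stem

variable {m : ℕ} {F : Type*} [Field F]

/-- The position of a coordinate. -/
def pos : Kd m → ℕ
  | .inl _ => m
  | .inr (.inl a) => a
  | .inr (.inr a) => 2 * m - a

@[simp] theorem pos_zr (x : Unit) : pos (.inl x : Kd m) = m := rfl
@[simp] theorem pos_l (a : Fin m) : pos (.inr (.inl a) : Kd m) = a := rfl
@[simp] theorem pos_r (a : Fin m) : pos (.inr (.inr a) : Kd m) = 2 * m - a := rfl

theorem pos_swap (u : Ip m) : pos (.inr u.swap : Kd m) = 2 * m - pos (.inr u : Kd m) := by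
  rcases u with a | a <;> simp <;> omega

theorem pos_le (k : Kd m) : pos k ≤ 2 * m := by
  rcases k with x | a | a <;> simp <;> omega

theorem pos_bar (k : Kd m) : pos (bar k) = 2 * m - pos k := by
  rcases k with x | u
  · simp
    omega
  · simpa using pos_swap u

theorem pos_ne (u : Ip m) : pos (.inr u : Kd m) ≠ m := by
  rcases u with a | a <;> simp <;> omega

theorem pos_inj {k l : Kd m} (h : pos k = pos l) : k = l := by
  rcases k with x | a | a <;> rcases l with y | b | b <;> simp at h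
  · rfl
  · omega
  · omega
  · omega
  · rw [Fin.ext h]
  · omega
  · omega
  · omega
  · have : a = b := Fin.ext (by omega)
    rw [this]

theorem val_idx {u v : Ip m} (h : Val u (.inr v)) : idx u ≠ idx v := by
  intro e
  rcases eq_or_swap_of_idx e with e | e
  · exact h.1 (by rw [e])
  · exact h.2 (by rw [e])

/-- The positive roots. -/
def Pr (u : Ip m) (k : Kd m) : Prop := Val u k ∧ pos (.inr u : Kd m) + pos k < 2 * m

/-- The height of a root. -/
def ht (u : Ip m) (k : Kd m) : ℕ := 2 * m - (pos (.inr u : Kd m) + pos k)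

theorem Pr.symm {u v : Ip m} (h : Pr u (.inr v)) : Pr v (.inr u) :=
  ⟨val_long (val_idx h.1).symm, by have := h.2; omega⟩

theorem ht_symm (u v : Ip m) : ht u (.inr v) = ht v (.inr u) := by
  simp only [ht]
  omega

theorem cm_eq_one_of_comm {Γ : Type*} [Group Γ] {a b : Γ} (h : a * b = b * a) : cm a b = 1 := by
  simp only [cm]
  rw [h]
  group

namespace CE

variable {Γ : Type*} [Group Γ] (C : CE m F Γ) [Fintype F]

/-- The subgroup generated by the root elements of positive roots of height larger than `h`. -/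
def UH (h : ℕ) : Subgroup Γ :=
  Subgroup.closure {g | ∃ (u : Ip m) (k : Kd m) (t : F), Pr u k ∧ h < ht u k ∧ g = C.xt u k t}

theorem mem_UH {h : ℕ} {u : Ip m} {k : Kd m} (hr : Pr u k) (hh : h < ht u k) (t : F) : C.xt u k t ∈ C.UH h :=
  Subgroup.subset_closure ⟨u, k, t, hr, hh, rfl⟩

/-- Hypothesis for the relation between a short and a far long root. -/
def HH (m : ℕ) (F : Type*) [Field F] : Prop := 4 ≤ m ∨ ∃ n : F, n ≠ 0 ∧ n * n ≠ 1

/-- The commutator with a short root element, first case. -/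
theorem cm_short_same (hH : HH m F) {u v : Ip m} {w : Ip m} (h1 : Pr u zr) (h2 : Pr v (.inr w)) (he : idx u = idx v) (s t : F) :
    cm (C.xt u zr s) (C.xt v (.inr w) t) ∈ C.UH (max (ht u zr) (ht v (.inr w))) := by
  have hi := val_idx h2.1
  rcases eq_or_swap_of_idx he with rfl | rfl
  · rw [cm_eq_one_of_comm (C.comm_sl hi s t)]
    exact one_mem _
  · have a1 := h1.2
    have a2 := h2.2
    rw [pos_swap] at a2
    simp only [pos_zr] at a1
    have hi' : idx u ≠ idx w := by simpa using hi
    have e0 : C.xt u.swap (.inr w) t = C.xt w (.inr u.swap) (-t) := C.xt_symm hi t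
    have hw : idx w ≠ idx u.swap := by simpa using hi'.symm
    have e1 := C.rel_T4 hw (-t) s
    rw [Sum.swap_swap] at e1
    have e2 : cm (C.xt u zr s) (C.xt u.swap (.inr w) t) = (cm (C.xt w (.inr u.swap) (-t)) (C.xt u zr s))⁻¹ := by
      rw [e0, cm_inv]
    rw [e2, e1]
    have p1 := pos_le (.inr u : Kd m)
    have r1 : Pr w zr := ⟨val_zr w, by simp; omega⟩
    have r2 : Pr w (.inr u) := ⟨val_long hi'.symm, by omega⟩
    refine inv_mem (mul_mem (C.mem_UH r1 ?_ _) (C.mem_UH r2 ?_ _))
    · simp only [ht, pos_swap, pos_zr]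
      omega
    · simp only [ht, pos_swap, pos_zr]
      omega


/-- The commutator with a short root element. -/
theorem cm_short_long (hH : HH m F) {u v w : Ip m} (h1 : Pr u zr) (h2 : Pr v (.inr w)) (s t : F) :
    cm (C.xt u zr s) (C.xt v (.inr w) t) ∈ C.UH (max (ht u zr) (ht v (.inr w))) := by
  have hi := val_idx h2.1
  by_cases e1 : idx u = idx v
  · exact C.cm_short_same hH h1 h2 e1 s t
  by_cases e2 : idx u = idx w
  · rw [C.xt_symm hi, ht_symm]
    exact C.cm_short_same hH h1 h2.symm e2 s _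
  · rw [cm_eq_one_of_comm (C.comm_far_s hH e1 e2 hi s t)]
    exact one_mem _

/-- The commutator of two short root elements. -/
theorem cm_short_short {u v : Ip m} (h1 : Pr u zr) (h2 : Pr v zr) (s t : F) :
    cm (C.xt u zr s) (C.xt v zr t) ∈ C.UH (max (ht u zr) (ht v zr)) := by
  have a1 := h1.2
  have a2 := h2.2
  simp only [pos_zr] at a1 a2
  by_cases e : idx u = idx v
  · rcases eq_or_swap_of_idx e with rfl | rfl
    · rw [C.comm_lifts (val_zr _) (C.xt_map (val_zr _) s) (C.xt_map (val_zr _) t)]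
      exact one_mem _
    · rw [pos_swap] at a2
      have := pos_le (.inr u : Kd m)
      omega
  · rw [C.rel_T3 e]
    have r : Pr u (.inr v) := ⟨val_long e, by omega⟩
    refine C.mem_UH r ?_ _
    simp only [ht, pos_zr]
    omega

/-- The commutator of two long root elements with a common index. -/
theorem cm_long_same {a b c d : Ip m} (h1 : Pr a (.inr b)) (h2 : Pr c (.inr d)) (he : idx a = idx c) (s t : F) :
    cm (C.xt a (.inr b) s) (C.xt c (.inr d) t) ∈ C.UH (max (ht a (.inr b)) (ht c (.inr d))) := by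
  have i1 := val_idx h1.1
  have i2 := val_idx h2.1
  have a1 := h1.2
  have a2 := h2.2
  rcases eq_or_swap_of_idx he with rfl | rfl
  · by_cases e : idx b = idx d
    · rcases eq_or_swap_of_idx e with rfl | rfl
      · rw [C.comm_lifts h1.1 (C.xt_map h1.1 s) (C.xt_map h1.1 t)]
        exact one_mem _
      · rw [cm_eq_one_of_comm (C.comm_opp i1 s t)]
        exact one_mem _
    · rw [cm_eq_one_of_comm (C.comm_ll i1 i2 e s t)]
      exact one_mem _
  · have i2' : idx a ≠ idx d := by simpa using i2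
    rw [pos_swap] at a2
    have p1 := pos_le (.inr a : Kd m)
    by_cases e : idx b = idx d
    · rcases eq_or_swap_of_idx e with rfl | rfl
      · rw [C.xt_symm i1, C.xt_symm i2, cm_eq_one_of_comm (C.comm_opp i1.symm _ _)]
        exact one_mem _
      · rw [pos_swap] at a2
        have p2 := pos_le (.inr b : Kd m)
        omega
    · have i3 : idx b ≠ idx a.swap := by simpa using i1.symm
      rw [C.xt_symm i1, C.rel_T2 i1.symm e i2']
      have r : Pr b (.inr d) := ⟨val_long e, by omega⟩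
      refine C.mem_UH r ?_ _
      simp only [ht, pos_swap]
      omega

theorem four_le {a b c d : Fin m} (h1 : a ≠ b) (h2 : a ≠ c) (h3 : a ≠ d) (h4 : b ≠ c) (h5 : b ≠ d) (h6 : c ≠ d) : 4 ≤ m := by
  have h : ({a, b, c, d} : Finset (Fin m)).card = 4 := by
    rw [Finset.card_insert_of_notMem (by simp [h1, h2, h3]), Finset.card_insert_of_notMem (by simp [h4, h5]),
      Finset.card_insert_of_notMem (by simp [h6]), Finset.card_singleton]
  have h7 := Finset.card_le_univ ({a, b, c, d} : Finset (Fin m))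
  simp at h7
  omega

/-- The commutator of two long root elements. -/
theorem cm_long_long {a b c d : Ip m} (h1 : Pr a (.inr b)) (h2 : Pr c (.inr d)) (s t : F) :
    cm (C.xt a (.inr b) s) (C.xt c (.inr d) t) ∈ C.UH (max (ht a (.inr b)) (ht c (.inr d))) := by
  have i1 := val_idx h1.1
  have i2 := val_idx h2.1
  by_cases e1 : idx a = idx c
  · exact C.cm_long_same h1 h2 e1 s t
  by_cases e2 : idx a = idx d
  · rw [C.xt_symm i2, ht_symm c]
    exact C.cm_long_same h1 h2.symm e2 s _
  by_cases e3 : idx b = idx c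
  · rw [C.xt_symm i1, ht_symm a]
    exact C.cm_long_same h1.symm h2 e3 _ t
  by_cases e4 : idx b = idx d
  · rw [C.xt_symm i1, C.xt_symm i2, ht_symm a, ht_symm c]
    exact C.cm_long_same h1.symm h2.symm e4 _ _
  · have H := four_le i1 e1 e2 e3 e4 i2
    rw [cm_eq_one_of_comm (C.comm_far_l H i1 e1 e2 e3 e4 i2 s t)]
    exact one_mem _

/-- **The commutator relations.** -/
theorem cm_mem (hH : HH m F) {u v : Ip m} {k l : Kd m} (h1 : Pr u k) (h2 : Pr v l) (s t : F) :
    cm (C.xt u k s) (C.xt v l t) ∈ C.UH (max (ht u k) (ht v l)) := by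
  rcases k with ⟨⟩ | w <;> rcases l with ⟨⟩ | y
  · exact C.cm_short_short h1 h2 s t
  · exact C.cm_short_long hH h1 h2 s t
  · rw [← cm_inv, max_comm]
    exact inv_mem (C.cm_short_long hH h2 h1 t s)
  · exact C.cm_long_long h1 h2 s t

/-! ### The chain -/

/-- The keys of positive roots. -/
def key (u : Ip m) (k : Kd m) : ℕ := ht u k * (2 * m + 2) + min (pos k) (pos (.inr u : Kd m))

/-- The subgroup generated by the root elements of positive roots of key larger than `a`. -/
def Qa (a : ℕ) : Subgroup Γ :=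
  Subgroup.closure {g | ∃ (u : Ip m) (k : Kd m) (t : F), Pr u k ∧ a < key u k ∧ g = C.xt u k t}

theorem mem_Qa {a : ℕ} {u : Ip m} {k : Kd m} (hr : Pr u k) (hh : a < key u k) (t : F) : C.xt u k t ∈ C.Qa a :=
  Subgroup.subset_closure ⟨u, k, t, hr, hh, rfl⟩

omit [Fintype F] in
theorem key_lt {u v : Ip m} {k l : Kd m} (h : ht u k < ht v l) : key u k < key v l := by
  have h1 : min (pos k) (pos (.inr u : Kd m)) ≤ 2 * m := (min_le_left _ _).trans (pos_le k)
  have h2 : (ht u k + 1) * (2 * m + 2) ≤ ht v l * (2 * m + 2) := Nat.mul_le_mul_right _ h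
  simp only [key]
  have h3 : (ht u k + 1) * (2 * m + 2) = ht u k * (2 * m + 2) + (2 * m + 2) := by ring
  omega

theorem UH_le_Qa {u : Ip m} {k : Kd m} {a : ℕ} (hh : a < key u k) : C.UH (ht u k) ≤ C.Qa a := by
  rw [UH, Subgroup.closure_le]
  rintro _ ⟨v, l, t, h1, h2, rfl⟩
  exact C.mem_Qa h1 (hh.trans (key_lt h2)) t

/-- Normalisation of the chain. -/
theorem Qa_norm (hH : HH m F) {u : Ip m} {k : Kd m} (hr : Pr u k) {a : ℕ} (ha : key u k ≤ a) (s : F) {g : Γ}
    (hg : g ∈ C.Qa a) : C.xt u k s * g * (C.xt u k s)⁻¹ ∈ C.Qa a := by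
  induction hg using Subgroup.closure_induction with
  | mem y hy =>
    obtain ⟨v, l, t, h1, h2, rfl⟩ := hy
    have e : C.xt u k s * C.xt v l t * (C.xt u k s)⁻¹ = cm (C.xt u k s) (C.xt v l t) * C.xt v l t := by
      simp only [cm]
      group
    rw [e]
    refine mul_mem ?_ (C.mem_Qa h1 h2 t)
    have h3 := C.cm_mem hH hr h1 s t
    have h4 : C.UH (max (ht u k) (ht v l)) ≤ C.UH (ht v l) := by
      rw [UH, UH]
      apply Subgroup.closure_mono
      rintro _ ⟨w, x, t', h5, h6, rfl⟩
      exact ⟨w, x, t', h5, lt_of_le_of_lt (le_max_right _ _) h6, rfl⟩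
    exact C.UH_le_Qa h2 (h4 h3)
  | one =>
    simp
  | mul x y _ _ hx hy =>
    have e : C.xt u k s * (x * y) * (C.xt u k s)⁻¹ =
        (C.xt u k s * x * (C.xt u k s)⁻¹) * (C.xt u k s * y * (C.xt u k s)⁻¹) := by group
    rw [e]
    exact mul_mem hx hy
  | inv x _ hx =>
    have e : C.xt u k s * x⁻¹ * (C.xt u k s)⁻¹ = (C.xt u k s * x * (C.xt u k s)⁻¹)⁻¹ := by group
    rw [e]
    exact inv_mem hx

omit [Fintype F] in
/-- Two positive roots with the same key are the same. -/
theorem key_inj {u v : Ip m} {k l : Kd m} (h1 : Pr u k) (h2 : Pr v l) (h : key u k = key v l) :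
    (v = u ∧ l = k) ∨ (l = .inr u ∧ k = .inr v) := by
  have m1 : min (pos k) (pos (.inr u : Kd m)) < 2 * m + 2 := by
    have := (min_le_left (pos k) (pos (.inr u : Kd m))).trans (pos_le k)
    omega
  have m2 : min (pos l) (pos (.inr v : Kd m)) < 2 * m + 2 := by
    have := (min_le_left (pos l) (pos (.inr v : Kd m))).trans (pos_le l)
    omega
  simp only [key] at h
  have e1 : ht u k = ht v l := by
    rcases lt_trichotomy (ht u k) (ht v l) with h3 | h3 | h3
    · have : (ht u k + 1) * (2 * m + 2) ≤ ht v l * (2 * m + 2) := Nat.mul_le_mul_right _ h3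
      have e : (ht u k + 1) * (2 * m + 2) = ht u k * (2 * m + 2) + (2 * m + 2) := by ring
      omega
    · exact h3
    · have : (ht v l + 1) * (2 * m + 2) ≤ ht u k * (2 * m + 2) := Nat.mul_le_mul_right _ h3
      have e : (ht v l + 1) * (2 * m + 2) = ht v l * (2 * m + 2) + (2 * m + 2) := by ring
      omega
  rw [e1] at h
  have e2 : min (pos k) (pos (.inr u : Kd m)) = min (pos l) (pos (.inr v : Kd m)) := by omega
  simp only [ht] at e1
  have a1 := h1.2
  have a2 := h2.2
  have hp : (pos (.inr v : Kd m) = pos (.inr u : Kd m) ∧ pos l = pos k) ∨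
      (pos l = pos (.inr u : Kd m) ∧ pos (.inr v : Kd m) = pos k) := by
    rcases le_total (pos k) (pos (.inr u : Kd m)) with h3 | h3 <;>
      rcases le_total (pos l) (pos (.inr v : Kd m)) with h4 | h4 <;>
      simp only [min_eq_left, min_eq_right, h3, h4] at e2 <;> omega
  rcases hp with ⟨p1, p2⟩ | ⟨p1, p2⟩
  · left
    exact ⟨Sum.inr_injective (pos_inj p1), pos_inj p2⟩
  · right
    exact ⟨pos_inj p1, (pos_inj p2).symm⟩

/-- The decomposition. -/
theorem Qa_dec (hH : HH m F) {u : Ip m} {k : Kd m} (hr : Pr u k) {a : ℕ} (ha : key u k = a + 1) {g : Γ}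
    (hg : g ∈ C.Qa a) : ∃ t : F, ∃ g' ∈ C.Qa (a + 1), g = C.xt u k t * g' := by
  have hle : key u k ≤ a + 1 := ha.le
  induction hg using Subgroup.closure_induction with
  | mem y hy =>
    obtain ⟨v, l, t, h1, h2, rfl⟩ := hy
    by_cases h3 : a + 1 < key v l
    · exact ⟨0, _, C.mem_Qa h1 h3 t, by rw [C.xt_zero hr.1, one_mul]⟩
    · have h4 : key u k = key v l := by omega
      rcases key_inj hr h1 h4 with ⟨rfl, rfl⟩ | ⟨rfl, rfl⟩
      · exact ⟨t, 1, one_mem _, by rw [mul_one]⟩
      · refine ⟨-t, 1, one_mem _, ?_⟩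
        rw [mul_one, C.xt_symm (val_idx hr.1)]
        simp
  | one => exact ⟨0, 1, one_mem _, by rw [C.xt_zero hr.1, one_mul]⟩
  | mul x y _ _ hx hy =>
    obtain ⟨t₁, g₁, h1, rfl⟩ := hx
    obtain ⟨t₂, g₂, h2, rfl⟩ := hy
    refine ⟨t₁ + t₂, (C.xt u k t₂)⁻¹ * g₁ * C.xt u k t₂ * g₂, mul_mem ?_ h2, ?_⟩
    · have := C.Qa_norm hH hr hle (-t₂) h1
      rw [C.xt_neg hr.1, inv_inv] at this
      exact this
    · rw [C.xt_add hr.1]
      group
  | inv x _ hx =>
    obtain ⟨t, g', h1, rfl⟩ := hx
    refine ⟨-t, C.xt u k t * g'⁻¹ * (C.xt u k t)⁻¹, C.Qa_norm hH hr hle t (inv_mem h1), ?_⟩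
    rw [C.xt_neg hr.1]
    group

end CE

/-! ### The real reading -/

/-- The key of a position. -/
def kk (l j : Kd m) : ℕ := (pos j - pos l) * (2 * m + 2) + min (pos l) (2 * m - pos j)

/-- The matrix of an isometry. -/
noncomputable abbrev Mx (g : OO m F) : Matrix (Kd m) (Kd m) F := ((g.1 : GL (Kd m) F) : Matrix (Kd m) (Kd m) F)

theorem Mx_mul (g g' : OO m F) : Mx (g * g') = Mx g * Mx g' := rfl

theorem Mx_apply (g : OO m F) (l j : Kd m) : Mx g l j = act g (ee j) l := by
  show _ = (Mx g *ᵥ (Pi.single j 1)) l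
  simp

/-- The filtration on isometries. -/
def IsR (a : ℕ) (g : OO m F) : Prop :=
  (∀ j, Mx g j j = 1) ∧ ∀ l j, l ≠ j → Mx g l j ≠ 0 → pos l < pos j ∧ a < kk l j

theorem IsR.one (a : ℕ) : IsR a (1 : OO m F) := by
  refine ⟨fun j => ?_, fun l j h h0 => absurd ?_ h0⟩
  · show (1 : Matrix (Kd m) (Kd m) F) j j = 1
    simp
  · show (1 : Matrix (Kd m) (Kd m) F) l j = 0
    simp [h]

theorem kk_lt {l p j : Kd m} (h1 : pos l < pos p) (h2 : pos p < pos j) : kk l p < kk l j := by
  simp only [kk]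
  have h3 : min (pos l) (2 * m - pos p) ≤ 2 * m := (min_le_right _ _).trans (Nat.sub_le _ _)
  have h4 : (pos p - pos l + 1) * (2 * m + 2) ≤ (pos j - pos l) * (2 * m + 2) :=
    Nat.mul_le_mul_right _ (by omega)
  have h5 : (pos p - pos l + 1) * (2 * m + 2) = (pos p - pos l) * (2 * m + 2) + (2 * m + 2) := by ring
  omega

theorem IsR.mul {a : ℕ} {g g' : OO m F} (h : IsR a g) (h' : IsR a g') : IsR a (g * g') := by
  classical
  constructor
  · intro j
    rw [Mx_mul, Matrix.mul_apply, Finset.sum_eq_single j]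
    · rw [h.1, h'.1, one_mul]
    · intro p _ hp
      by_contra h0
      have n1 : Mx g j p ≠ 0 := left_ne_zero_of_mul h0
      have n2 : Mx g' p j ≠ 0 := right_ne_zero_of_mul h0
      have h1 := (h.2 j p hp.symm n1).1
      have h2 := (h'.2 p j hp n2).1
      omega
    · simp
  · intro l j hlj h0
    rw [Mx_mul, Matrix.mul_apply] at h0
    obtain ⟨p, -, hp⟩ := Finset.exists_ne_zero_of_sum_ne_zero h0
    have n1 : Mx g l p ≠ 0 := left_ne_zero_of_mul hp
    have n2 : Mx g' p j ≠ 0 := right_ne_zero_of_mul hp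
    by_cases e1 : l = p
    · subst e1
      exact h'.2 _ _ hlj n2
    by_cases e2 : p = j
    · subst e2
      exact h.2 _ _ hlj n1
    obtain ⟨b1, b2⟩ := h.2 _ _ e1 n1
    obtain ⟨b3, b4⟩ := h'.2 _ _ e2 n2
    exact ⟨b1.trans b3, b2.trans (kk_lt b1 b3)⟩

/-- The entries of a root element. -/
theorem XX_entry {u : Ip m} {k : Kd m} (hv : Val u k) (t : F) (l j : Kd m) :
    Mx (XX u k t) l j = ee j l + (if j = .inr u.swap ∧ l = k then t else 0)
      - (if j = bar k ∧ l = .inr u then t * cc k else 0)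
      - (if j = .inr u.swap ∧ l = .inr u then t * t * qk k else 0) := by
  rw [Mx_apply, act_XX hv.2]
  have e1 : ∀ z : Kd m, (z = j) = (j = z) := fun z => propext eq_comm
  simp only [Pi.add_apply, Pi.sub_apply, Pi.smul_apply, smul_eq_mul, ee_apply, e1 (.inr u.swap), e1 (bar k), ite_and]
  split_ifs <;> ring

theorem XX_read {u : Ip m} {k : Kd m} (hv : Val u k) (t : F) : Mx (XX u k t) k (.inr u.swap) = t := by
  have a1 : k ≠ (.inr u : Kd m) := hv.1
  have a2 : k ≠ (.inr u.swap : Kd m) := hv.2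
  rw [XX_entry hv, ee_apply, if_neg a2, if_pos ⟨rfl, rfl⟩, if_neg (fun e => a1 e.2), if_neg (fun e => a1 e.2)]
  ring

theorem kk_key {u : Ip m} {k : Kd m} (hr : Pr u k) : kk k (.inr u.swap) = CE.key u k := by
  have h1 := hr.2
  simp only [kk, CE.key, ht, pos_swap]
  have e1 : 2 * m - pos (.inr u : Kd m) - pos k = 2 * m - (pos (.inr u : Kd m) + pos k) := by omega
  have e2 : 2 * m - (2 * m - pos (.inr u : Kd m)) = pos (.inr u : Kd m) := by omega
  rw [e1, e2]

theorem XX_isR {u : Ip m} {k : Kd m} (hr : Pr u k) (t : F) {a : ℕ} (ha : a < CE.key u k) : IsR a (XX u k t) := by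
  have hv := hr.1
  have a1 : k ≠ (.inr u : Kd m) := hv.1
  have a2 : k ≠ (.inr u.swap : Kd m) := hv.2
  have s1 := hr.2
  have a3 : (.inr u.swap : Kd m) ≠ .inr u := fun e => swap_ne u (Sum.inr_injective e)
  constructor
  · intro j
    rw [XX_entry hv, ee_self, if_neg (fun e => a2 (e.2.symm.trans e.1)),
      if_neg (fun e => a2 (by
        rw [← bar_bar k, e.1.symm, e.2]
        rfl)), if_neg (fun e => a3 (e.1.symm.trans e.2))]
    ring
  · intro l j hlj h0
    rw [XX_entry hv, ee_apply, if_neg hlj, zero_add] at h0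
    by_cases c1 : j = .inr u.swap ∧ l = k
    · obtain ⟨rfl, rfl⟩ := c1
      rw [pos_swap, kk_key hr]
      have := pos_le (.inr u : Kd m)
      exact ⟨by omega, ha⟩
    by_cases c2 : j = bar k ∧ l = .inr u
    · obtain ⟨rfl, rfl⟩ := c2
      rw [pos_bar]
      have := pos_le k
      refine ⟨by omega, ?_⟩
      simp only [kk, CE.key, ht, pos_bar] at ha ⊢
      have e1 : 2 * m - pos k - pos (.inr u : Kd m) = 2 * m - (pos (.inr u : Kd m) + pos k) := by omega
      have e2 : 2 * m - (2 * m - pos k) = pos k := by omega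
      rw [e1, e2, min_comm]
      exact ha
    by_cases c3 : j = .inr u.swap ∧ l = .inr u
    · obtain ⟨rfl, rfl⟩ := c3
      have hk : qk k ≠ (0 : F) := by
        intro h
        apply h0
        rw [if_neg c1, if_neg c2, if_pos ⟨rfl, rfl⟩, h]
        ring
      rcases k with ⟨⟩ | w
      · simp only [pos_zr] at s1
        rw [pos_swap]
        refine ⟨by omega, ?_⟩
        simp only [kk, CE.key, ht, pos_swap, pos_zr] at ha ⊢
        have h5 : (2 * m - (m + 0 + pos (.inr u : Kd m) - 0 - m + m) ) = m - pos (.inr u : Kd m) := by omega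
        have h6 : (m - pos (.inr u : Kd m)) ≤ 2 * m - pos (.inr u : Kd m) - pos (.inr u : Kd m) := by omega
        have h7 := Nat.mul_le_mul_right (2 * m + 2) h6
        have e1 : 2 * m - (pos (.inr u : Kd m) + m) = m - pos (.inr u : Kd m) := by omega
        have e2 : 2 * m - (2 * m - pos (.inr u : Kd m)) = pos (.inr u : Kd m) := by omega
        rw [e1] at ha
        rw [e2, min_self]
        have h8 : min m (pos (.inr u : Kd m)) = pos (.inr u : Kd m) := min_eq_right (by omega)
        rw [h8] at ha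
        omega
      · simp at hk
    · exfalso
      apply h0
      rw [if_neg c1, if_neg c2, if_neg c3]
      ring

namespace CE

variable {Γ : Type*} [Group Γ] (C : CE m F Γ) [Fintype F]

theorem Qa_isR {a : ℕ} {g : Γ} (hg : g ∈ C.Qa a) : IsR a (C.σ g) := by
  induction hg using Subgroup.closure_induction_left with
  | one =>
    rw [map_one]
    exact IsR.one a
  | mul_left x hx y _ hy =>
    obtain ⟨u, k, t, h1, h2, rfl⟩ := hx
    rw [map_mul, C.xt_map h1.1]
    exact (XX_isR h1 t h2).mul hy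
  | inv_mul_cancel x hx y _ hy =>
    obtain ⟨u, k, t, h1, h2, rfl⟩ := hx
    rw [← C.xt_neg h1.1, map_mul, C.xt_map h1.1]
    exact (XX_isR h1 _ h2).mul hy

/-- **The positive root elements map injectively to `Ω`.** -/
theorem Qa_inj (hH : HH m F) : ∀ (n a : ℕ), (2 * m) * (2 * m + 2) + 2 * m + 1 ≤ a + n → ∀ g ∈ C.Qa a, C.σ g = 1 → g = 1 := by
  intro n
  induction n with
  | zero =>
    intro a ha g hg _
    have h1 : C.Qa a ≤ ⊥ := by
      rw [Qa, Subgroup.closure_le]
      rintro _ ⟨u, k, t, h1, h2, rfl⟩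
      exfalso
      have h3 : ht u k ≤ 2 * m := Nat.sub_le _ _
      have h4 : ht u k * (2 * m + 2) ≤ (2 * m) * (2 * m + 2) := Nat.mul_le_mul_right _ h3
      have h5 : min (pos k) (pos (.inr u : Kd m)) ≤ 2 * m := (min_le_left _ _).trans (pos_le k)
      simp only [key] at h2
      omega
    exact h1 hg
  | succ n ih =>
    intro a ha g hg h1
    have IH := ih (a + 1) (by omega)
    by_cases ex : ∃ (u : Ip m) (k : Kd m), Pr u k ∧ key u k = a + 1
    · obtain ⟨u, k, hr, hk⟩ := ex
      obtain ⟨t, g', hg', rfl⟩ := C.Qa_dec hH hr hk hg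
      rw [map_mul, C.xt_map hr.1] at h1
      have h2 : C.σ g' = XX u k (-t) := by
        rw [XX_neg]
        exact eq_inv_of_mul_eq_one_right h1
      have h3 := C.Qa_isR hg'
      rw [h2] at h3
      have h4 : -t = 0 := by
        by_contra h5
        have h6 := h3.2 k (.inr u.swap) hr.1.2 (by rwa [XX_read hr.1])
        rw [kk_key hr, hk] at h6
        omega
      have h5 : t = 0 := neg_eq_zero.mp h4
      rw [h5, C.xt_zero hr.1, one_mul]
      rw [h5, neg_zero, XX_zero] at h2
      exact IH g' hg' h2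
    · push Not at ex
      have h2 : C.Qa a ≤ C.Qa (a + 1) := by
        rw [Qa, Subgroup.closure_le]
        rintro _ ⟨u, k, t, h3, h4, rfl⟩
        have := ex u k h3
        exact C.mem_Qa h3 (by omega) t
      exact IH g (h2 hg) h1

/-- The positive part. -/
def UU : Subgroup Γ := C.Qa 0

omit [Fintype F] in
theorem key_pos {u : Ip m} {k : Kd m} (hr : Pr u k) : 0 < key u k := by
  have h1 := hr.2
  have h2 : 1 ≤ ht u k := by
    simp only [ht]
    omega
  have h3 : 1 * (2 * m + 2) ≤ ht u k * (2 * m + 2) := Nat.mul_le_mul_right _ h2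
  simp only [key]
  omega

theorem mem_UU {u : Ip m} {k : Kd m} (hr : Pr u k) (t : F) : C.xt u k t ∈ C.UU := C.mem_Qa hr (key_pos hr) t

theorem UU_inj (hH : HH m F) {g : Γ} (hg : g ∈ C.UU) (h : C.σ g = 1) : g = 1 :=
  C.Qa_inj hH ((2 * m) * (2 * m + 2) + 2 * m + 1) 0 (by omega) g hg h

end CE

end Cfsg.Agent.Lib.SpinB
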