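import Mathlib
import Cfsg.Agent.Lib.SpinB.Chain

/-!
# Central extensions of the odd orthogonal groups: the Bruhat decomposition
-/

set_option autoImplicit false
set_option linter.unusedSectionVars false
set_option linter.unusedSimpArgs false
set_option linter.unusedVariables false

namespace Cfsg.Agent.Lib.SpinB

open Matrix QuadraticMap Equiv
open Cfsg.Agent.Lib.Classical.Orth.Basic
open Cfsg.Agent.Lib.Classical.Orth.Models
open Cfsg.Agent.Lib.Classical.Orth.Siegel
open Cfsg.Agent.Lib.Classical.Orth.Generation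
open Cfsg.Agent.Lib.Sporadic.Stem

variable {m : ℕ} {F : Type*} [Field F]

section Abstract

variable {Γ : Type*} [Group Γ] {ι : Type*} {U N : Subgroup Γ} {U' : ι → Subgroup Γ} {x y : ι → F → Γ}

/-- The abstract Bruhat decomposition. -/
theorem bruhat_abs (hxadd : ∀ i s t, x i (s + t) = x i s * x i t) (hyadd : ∀ i s t, y i (s + t) = y i s * y i t)
    (hxU : ∀ i t, x i t ∈ U) (hwN : ∀ i s, s ≠ 0 → x i s * y i s⁻¹ * x i s ∈ N)
    (hdec : ∀ i, ∀ u ∈ U, ∃ u' ∈ U' i, ∃ a, u = u' * x i a)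
    (hconj : ∀ i s, s ≠ 0 → ∀ u' ∈ U' i, (x i s * y i s⁻¹ * x i s) * u' * (x i s * y i s⁻¹ * x i s)⁻¹ ∈ U)
    (hcx : ∀ i s, s ≠ 0 → ∀ a, (x i s * y i s⁻¹ * x i s) * x i a * (x i s * y i s⁻¹ * x i s)⁻¹ = y i (s⁻¹ * s⁻¹ * a))
    (hdich : ∀ i, ∀ n ∈ N, (∀ a, n⁻¹ * x i a * n ∈ U) ∨ (∀ b, n⁻¹ * y i b * n ∈ U)) :
    ∀ g ∈ Subgroup.closure ((U : Set Γ) ∪ {w | ∃ i s, s ≠ 0 ∧ w = x i s * y i s⁻¹ * x i s}),
      ∃ u ∈ U, ∃ n ∈ N, ∃ u' ∈ U, g = u * n * u' := by
  have x0 : ∀ i, x i 0 = 1 := by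
    intro i
    have := hxadd i 0 0
    rw [add_zero] at this
    exact mul_eq_left.mp this.symm
  have y0 : ∀ i, y i 0 = 1 := by
    intro i
    have := hyadd i 0 0
    rw [add_zero] at this
    exact mul_eq_left.mp this.symm
  have xn : ∀ i t, x i (-t) = (x i t)⁻¹ := by
    intro i t
    apply eq_inv_of_mul_eq_one_left
    rw [← hxadd, neg_add_cancel, x0]
  have yn : ∀ i t, y i (-t) = (y i t)⁻¹ := by
    intro i t
    apply eq_inv_of_mul_eq_one_left
    rw [← hyadd, neg_add_cancel, y0]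
  have hU : ∀ c ∈ U, ∀ g : Γ, (∃ u ∈ U, ∃ n ∈ N, ∃ u' ∈ U, g = u * n * u') → ∃ u ∈ U, ∃ n ∈ N, ∃ u' ∈ U, c * g = u * n * u' := by
    rintro c hc g ⟨u, hu, n, hn, u', hu', rfl⟩
    exact ⟨c * u, mul_mem hc hu, n, hn, u', hu', by group⟩
  have hW : ∀ i s, s ≠ 0 → ∀ g : Γ, (∃ u ∈ U, ∃ n ∈ N, ∃ u' ∈ U, g = u * n * u') →
      ∃ u ∈ U, ∃ n ∈ N, ∃ u' ∈ U, (x i s * y i s⁻¹ * x i s) * g = u * n * u' := by
    rintro i s hs g ⟨u, hu, n, hn, u', hu', rfl⟩
    obtain ⟨u₁, hu₁, a, rfl⟩ := hdec i u hu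
    set w := x i s * y i s⁻¹ * x i s with hw
    have hwn : w ∈ N := hwN i s hs
    have hc1 := hconj i s hs u₁ hu₁
    rw [← hw] at hc1
    have hn' : w * n ∈ N := mul_mem hwn hn
    by_cases ha : a = 0
    · refine ⟨_, hc1, w * n, hn', u', hu', ?_⟩
      rw [ha, x0]
      group
    · set b := s⁻¹ * s⁻¹ * a with hb
      have hb0 : b ≠ 0 := mul_ne_zero (mul_ne_zero (inv_ne_zero hs) (inv_ne_zero hs)) ha
      have e1 : w * (u₁ * x i a * n * u') = (w * u₁ * w⁻¹) * y i b * (w * n) * u' := by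
        have := hcx i s hs a
        rw [← hw, ← hb] at this
        rw [← this]
        group
      rcases hdich i _ hn' with h | h
      · -- the relation between `y` and `w`
        have e2 : y i b = x i (-b⁻¹) * (x i b⁻¹ * y i b⁻¹⁻¹ * x i b⁻¹) * x i (-b⁻¹) := by
          rw [inv_inv, xn]
          group
        have hw2 := hwN i b⁻¹ (inv_ne_zero hb0)
        refine ⟨(w * u₁ * w⁻¹) * x i (-b⁻¹), mul_mem hc1 (hxU _ _), (x i b⁻¹ * y i b⁻¹⁻¹ * x i b⁻¹) * (w * n), mul_mem hw2 hn',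
          ((w * n)⁻¹ * x i (-b⁻¹) * (w * n)) * u', mul_mem (h _) hu', ?_⟩
        rw [e1]
        nth_rw 1 [e2]
        group
      · refine ⟨_, hc1, w * n, hn', ((w * n)⁻¹ * y i b * (w * n)) * u', mul_mem (h b) hu', ?_⟩
        rw [e1]
        group
  intro g hg
  induction hg using Subgroup.closure_induction_left with
  | one => exact ⟨1, one_mem _, 1, one_mem _, 1, one_mem _, by simp⟩
  | mul_left c hc g _ hg =>
    rcases hc with hc | ⟨i, s, hs, rfl⟩
    · exact hU c hc g hg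
    · exact hW i s hs g hg
  | inv_mul_cancel c hc g _ hg =>
    rcases hc with hc | ⟨i, s, hs, rfl⟩
    · exact hU _ (inv_mem hc) g hg
    · have e : (x i s * y i s⁻¹ * x i s)⁻¹ = x i (-s) * y i (-s)⁻¹ * x i (-s) := by
        rw [inv_neg, yn, xn]
        group
      rw [e]
      exact hW i (-s) (neg_ne_zero.mpr hs) g hg

end Abstract

/-! ### The simple roots -/

/-- The second coordinate of a simple root. -/
def ak (i : Fin m) : Kd m := if h : i.1 + 1 < m then .inr (.inr ⟨i.1 + 1, h⟩) else zr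

theorem ak_long {i : Fin m} (h : i.1 + 1 < m) : ak i = .inr (.inr ⟨i.1 + 1, h⟩) := dif_pos h

theorem ak_short {i : Fin m} (h : ¬ i.1 + 1 < m) : ak i = zr := dif_neg h

theorem pr_simple (i : Fin m) : Pr (.inl i : Ip m) (ak i) := by
  have hi := i.2
  by_cases h : i.1 + 1 < m
  · rw [ak_long h]
    have hne : idx (.inl i : Ip m) ≠ idx (.inr ⟨i.1 + 1, h⟩ : Ip m) := by
      simp only [idx_inl, idx_inr]
      intro e
      have := congrArg Fin.val e
      simp at this
    refine ⟨val_long hne, ?_⟩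
    simp
    omega
  · rw [ak_short h]
    refine ⟨val_zr _, ?_⟩
    simp
    omega

theorem pos_ak {i : Fin m} : pos (ak i) = 2 * m - 1 - i.1 := by
  have hi := i.2
  by_cases h : i.1 + 1 < m
  · rw [ak_long h]
    simp
    omega
  · rw [ak_short h]
    simp
    omega

theorem ht_simple (i : Fin m) : ht (.inl i : Ip m) (ak i) = 1 := by
  have hi := i.2
  simp only [ht, pos_ak, pos_l]
  omega

/-- The monomial data of a Weyl element. -/
theorem exists_isM_NN {u : Ip m} {k : Kd m} (hv : Val u k) {s : F} (hs : s ≠ 0) :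
    ∃ (π : Perm (Ip m)) (c : Ip m → F) (c₀ : F), IsM (NN u k s) π c c₀ := by
  rcases k with ⟨⟩ | v
  · exact ⟨_, _, _, isM_NN_short u hs⟩
  · have h1 : u ≠ v := fun e => hv.1 (by rw [e])
    have h2 : u ≠ v.swap := fun e => hv.2 (by rw [e, Sum.swap_swap])
    exact ⟨_, _, _, isM_NN_long h1 h2 hs⟩

theorem mkK_bar {g : OO m F} {π : Perm (Ip m)} {c : Ip m → F} {c₀ : F} (h : IsM g π c c₀) (k : Kd m) :
    mkK π (bar k) = bar (mkK π k) := by
  rcases k with ⟨⟩ | v
  · rfl
  · simp [h.swap_eq]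

theorem pos_mkK_bar {g : OO m F} {π : Perm (Ip m)} {c : Ip m → F} {c₀ : F} (h : IsM g π c c₀) (k : Kd m) :
    pos (mkK π (bar k)) = 2 * m - pos (mkK π k) := by
  rw [mkK_bar h, pos_bar]

theorem XX_self (u : Ip m) (t : F) : XX u (.inr u) t = 1 := by
  have h : u ≠ u.swap := swap_ne' u
  apply ext_act
  intro x
  rw [act_long h, act_one]
  module

/-- A monomial unipotent element is trivial. -/
theorem mono_unip {g : OO m F} {π : Perm (Ip m)} {c : Ip m → F} {c₀ : F} (hM : IsM g π c c₀) (hR : IsR 0 g) : g = 1 := by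
  classical
  have e1 : ∀ u, Mx g (.inr (π u)) (.inr u) = c u := by
    intro u
    rw [Mx_apply, hM.inr, Pi.smul_apply, ee_self, smul_eq_mul, mul_one]
  have h1 : ∀ u, pos (.inr (π u) : Kd m) ≤ pos (.inr u : Kd m) := by
    intro u
    by_cases h : π u = u
    · rw [h]
    · have h2 : (.inr (π u) : Kd m) ≠ .inr u := fun e => h (Sum.inr_injective e)
      exact (hR.2 _ _ h2 (by rw [e1]; exact hM.ne u)).1.le
  have h2 : ∑ u, pos (.inr (π u) : Kd m) = ∑ u, pos (.inr u : Kd m) :=
    Equiv.sum_comp π (fun u => pos (.inr u : Kd m))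
  have h3 := (Finset.sum_eq_sum_iff_of_le (fun u _ => h1 u)).mp h2
  have h4 : ∀ u, π u = u := fun u => Sum.inr_injective (pos_inj (h3 u (Finset.mem_univ u)))
  have h5 : ∀ u, c u = 1 := by
    intro u
    rw [← e1, h4, hR.1]
  have h6 : c₀ = 1 := by
    have : Mx g zr zr = c₀ := by
      rw [Mx_apply, hM.inl, Pi.smul_apply, ee_self, smul_eq_mul, mul_one]
    rw [← this, hR.1]
  apply ext_ee
  intro k
  rw [hM.act_ee, act_one]
  rcases k with ⟨⟩ | u
  · simp [h6]
  · simp [h5, h4]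

/-- The permutation of positions. -/
def tauL (m i p : ℕ) : ℕ :=
  if p = i then i + 1 else if p = i + 1 then i else if p = 2 * m - i then 2 * m - i - 1 else if p = 2 * m - i - 1 then 2 * m - i else p

theorem pos_piL {i j : Fin m} (hj : i.1 + 1 = j.1) (x : Ip m) :
    pos (.inr (piL (.inl i : Ip m) (.inr j) x) : Kd m) = tauL m i (pos (.inr x : Kd m)) := by
  have hne : i ≠ j := fun e => by
    rw [e] at hj
    omega
  have h1 : (.inl i : Ip m) ≠ .inr j := by simp
  have h2 : (.inl i : Ip m) ≠ Sum.swap (.inr j) := by simpa using hne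
  have hi := i.2
  have hj2 := j.2
  rcases x with a | a
  · have ha := a.2
    by_cases e1 : a = i
    · rw [e1, piL_u h1 h2]
      simp only [Sum.swap_inr, pos_l]
      unfold tauL
      split_ifs <;> omega
    by_cases e2 : a = j
    · have := piL_vb (u := (.inl i : Ip m)) (v := .inr j) h1 h2
      rw [e2]
      have e3 : Sum.swap (.inr j : Ip m) = .inl j := rfl
      rw [e3] at this
      rw [this]
      simp only [pos_l]
      unfold tauL
      split_ifs <;> omega
    · have := piL_o (u := (.inl i : Ip m)) (v := .inr j) h1 h2 (w := .inl a) (by simpa using e1) (by simpa using e2) (by simp) (by simp)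
      rw [this]
      have e5 : (a : ℕ) ≠ i := fun e => e1 (Fin.ext e)
      have e6 : (a : ℕ) ≠ j := fun e => e2 (Fin.ext e)
      simp only [pos_l]
      unfold tauL
      split_ifs <;> omega
  · have ha := a.2
    by_cases e1 : a = i
    · have := piL_ub (u := (.inl i : Ip m)) (v := .inr j) h1 h2
      rw [e1]
      have e3 : Sum.swap (.inl i : Ip m) = .inr i := rfl
      rw [e3] at this
      rw [this]
      simp only [pos_r]
      unfold tauL
      split_ifs <;> omega
    by_cases e2 : a = j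
    · rw [e2, piL_v h1 h2]
      simp only [pos_r, Sum.swap_inl]
      unfold tauL
      split_ifs <;> omega
    · have := piL_o (u := (.inl i : Ip m)) (v := .inr j) h1 h2 (w := .inr a) (by simp) (by simp) (by simpa using e2) (by simpa using e1)
      rw [this]
      have e5 : (a : ℕ) ≠ i := fun e => e1 (Fin.ext e)
      have e6 : (a : ℕ) ≠ j := fun e => e2 (Fin.ext e)
      simp only [pos_r]
      unfold tauL
      split_ifs <;> omega

/-- The permutation of positions, short case. -/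
def tauS (m i p : ℕ) : ℕ := if p = i then m + 1 else if p = m + 1 then i else p

namespace CE

variable {Γ : Type*} [Group Γ] (C : CE m F Γ) [Fintype F]

omit [Fintype F] in
theorem val_bar {u : Ip m} {k : Kd m} (h : Val u k) : Val u.swap (bar k) := by
  rcases k with ⟨⟩ | v
  · exact val_zr _
  · have := val_idx h
    exact val_long (by simpa using this)

/-- The Weyl elements. -/
noncomputable def nt (u : Ip m) (k : Kd m) (s : F) : Γ := C.xt u k s * C.xt u.swap (bar k) s⁻¹ * C.xt u k s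

theorem nt_map {u : Ip m} {k : Kd m} (hv : Val u k) (s : F) : C.σ (C.nt u k s) = NN u k s := by
  simp only [nt, map_mul, C.xt_map hv, C.xt_map (val_bar hv), NN]

theorem nt_inv {u : Ip m} {k : Kd m} (hv : Val u k) (s : F) : (C.nt u k s)⁻¹ = C.nt u k (-s) := by
  simp only [nt]
  rw [inv_neg, C.xt_neg hv, C.xt_neg (val_bar hv)]
  group

/-- The positive root elements other than a simple one. -/
def UP (i : Fin m) : Subgroup Γ :=
  Subgroup.closure {g | ∃ (v : Ip m) (l : Kd m) (t : F), Pr v l ∧ key v l ≠ key (.inl i : Ip m) (ak i) ∧ g = C.xt v l t}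

theorem mem_UP {i : Fin m} {v : Ip m} {l : Kd m} (h1 : Pr v l) (h2 : key v l ≠ key (.inl i : Ip m) (ak i)) (t : F) :
    C.xt v l t ∈ C.UP i := Subgroup.subset_closure ⟨v, l, t, h1, h2, rfl⟩

theorem UP_norm (hH : HH m F) (i : Fin m) (s : F) {g : Γ} (hg : g ∈ C.UP i) :
    C.xt (.inl i) (ak i) s * g * (C.xt (.inl i) (ak i) s)⁻¹ ∈ C.UP i := by
  induction hg using Subgroup.closure_induction with
  | mem y hy =>
    obtain ⟨v, l, t, h1, h2, rfl⟩ := hy
    have e : C.xt (.inl i) (ak i) s * C.xt v l t * (C.xt (.inl i) (ak i) s)⁻¹ = cm (C.xt (.inl i) (ak i) s) (C.xt v l t) * C.xt v l t := by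
      simp only [cm]
      group
    rw [e]
    refine mul_mem ?_ (C.mem_UP h1 h2 t)
    have h3 := C.cm_mem hH (pr_simple i) h1 s t
    have h4 : C.UH (max (ht (.inl i : Ip m) (ak i)) (ht v l)) ≤ C.UP i := by
      rw [UH, Subgroup.closure_le]
      rintro _ ⟨w, x, t', h5, h6, rfl⟩
      refine C.mem_UP h5 (key_lt (lt_of_le_of_lt (le_max_left _ _) h6)).ne' t'
    exact h4 h3
  | one =>
    simp
  | mul x y _ _ hx hy =>
    have e : C.xt (.inl i) (ak i) s * (x * y) * (C.xt (.inl i) (ak i) s)⁻¹ =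
        (C.xt (.inl i) (ak i) s * x * (C.xt (.inl i) (ak i) s)⁻¹) * (C.xt (.inl i) (ak i) s * y * (C.xt (.inl i) (ak i) s)⁻¹) := by group
    rw [e]
    exact mul_mem hx hy
  | inv x _ hx =>
    have e : C.xt (.inl i) (ak i) s * x⁻¹ * (C.xt (.inl i) (ak i) s)⁻¹ = (C.xt (.inl i) (ak i) s * x * (C.xt (.inl i) (ak i) s)⁻¹)⁻¹ := by group
    rw [e]
    exact inv_mem hx

theorem UU_dec (hH : HH m F) (i : Fin m) {g : Γ} (hg : g ∈ C.UU) : ∃ u' ∈ C.UP i, ∃ a : F, g = u' * C.xt (.inl i) (ak i) a := by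
  have hr := pr_simple i
  induction hg using Subgroup.closure_induction with
  | mem y hy =>
    obtain ⟨v, l, t, h1, h2, rfl⟩ := hy
    by_cases h3 : key v l = key (.inl i : Ip m) (ak i)
    · rcases key_inj hr h1 h3.symm with ⟨rfl, rfl⟩ | ⟨rfl, e⟩
      · exact ⟨1, one_mem _, t, by rw [one_mul]⟩
      · rw [C.xt_symm (val_idx h1.1) t]
        have e2 : (.inr (.inl i) : Kd m) = .inr (.inl i) := rfl
        refine ⟨1, one_mem _, -t, ?_⟩
        rw [one_mul, e]
    · exact ⟨_, C.mem_UP h1 h3 t, 0, by rw [C.xt_zero hr.1, mul_one]⟩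
  | one => exact ⟨1, one_mem _, 0, by rw [C.xt_zero hr.1, mul_one]⟩
  | mul x y _ _ hx hy =>
    obtain ⟨u₁, h1, a₁, rfl⟩ := hx
    obtain ⟨u₂, h2, a₂, rfl⟩ := hy
    refine ⟨u₁ * (C.xt (.inl i) (ak i) a₁ * u₂ * (C.xt (.inl i) (ak i) a₁)⁻¹), mul_mem h1 (C.UP_norm hH i a₁ h2), a₁ + a₂, ?_⟩
    rw [C.xt_add hr.1]
    group
  | inv x _ hx =>
    obtain ⟨u₁, h1, a₁, rfl⟩ := hx
    refine ⟨C.xt (.inl i) (ak i) (-a₁) * u₁⁻¹ * (C.xt (.inl i) (ak i) (-a₁))⁻¹, C.UP_norm hH i _ (inv_mem h1), -a₁, ?_⟩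
    rw [C.xt_neg hr.1]
    group

/-- The action of a simple Weyl element on the simple root element. -/
theorem nt_conj_simple (i : Fin m) {s : F} (hs : s ≠ 0) (a : F) :
    C.nt (.inl i) (ak i) s * C.xt (.inl i) (ak i) a * (C.nt (.inl i) (ak i) s)⁻¹ =
      C.xt (.inr i) (bar (ak i)) (s⁻¹ * s⁻¹ * a) := by
  have hr := pr_simple i
  by_cases h : i.1 + 1 < m
  · rw [ak_long h] at hr ⊢
    set j : Fin m := ⟨i.1 + 1, h⟩ with hj
    have hne : i ≠ j := fun e => by
      have := congrArg Fin.val e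
      simp [hj] at this
    have h1 : (.inl i : Ip m) ≠ .inr j := by simp
    have h2 : (.inl i : Ip m) ≠ Sum.swap (.inr j) := by simpa using hne
    have hM := isM_NN_long (F := F) h1 h2 hs
    rw [← C.nt_map hr.1 s] at hM
    rw [C.xt_conj hr.1 hM, mkK_inr, piL_u h1 h2, piL_v h1 h2, ck_inr, cL_u h1 h2, cL_v h1 h2]
    have hi : idx (Sum.swap (.inr j : Ip m)) ≠ idx (Sum.swap (.inl i : Ip m)) := by
      simpa using hne.symm
    rw [C.xt_symm hi]
    simp only [Sum.swap_inr, Sum.swap_inl, bar_inr]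
    congr 1
    ring
  · rw [ak_short h] at hr ⊢
    have hM := isM_NN_short (F := F) (.inl i : Ip m) hs
    rw [← C.nt_map hr.1 s] at hM
    rw [C.xt_conj hr.1 hM, swap_apply_left, mkK_inl, ck_inl]
    simp only [cS, Sum.swap_inl, if_true, bar_inl]
    congr 1
    ring


/-- The simple Weyl elements permute the positive root elements other than the simple one. -/
theorem nt_conj_pos (i : Fin m) {s : F} (hs : s ≠ 0) {v : Ip m} {l : Kd m} (h1 : Pr v l)
    (h2 : key v l ≠ key (.inl i : Ip m) (ak i)) (t : F) :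
    C.nt (.inl i) (ak i) s * C.xt v l t * (C.nt (.inl i) (ak i) s)⁻¹ ∈ C.UU := by
  have hr := pr_simple i
  have hi := i.2
  have n1 := h1.2
  have hne1 : ¬ (pos (.inr v : Kd m) = i ∧ pos l = pos (ak i)) := by
    rintro ⟨e1, e2⟩
    apply h2
    have e3 : (.inr v : Kd m) = .inr (.inl i) := pos_inj (by rw [e1, pos_l])
    rw [Sum.inr_injective e3, pos_inj e2]
  have hne2 : ¬ (pos l = i ∧ pos (.inr v : Kd m) = pos (ak i)) := by
    rintro ⟨e1, e2⟩
    apply h2
    have e3 : l = .inr (.inl i) := pos_inj (by rw [e1, pos_l])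
    have e4 : (.inr v : Kd m) = ak i := pos_inj e2
    simp only [key, ht, e3, e4, pos_l, min_comm]
    rw [Nat.add_comm (pos (ak i)) (i : ℕ)]
  rw [pos_ak] at hne1 hne2
  by_cases h : i.1 + 1 < m
  · rw [ak_long h] at hr ⊢
    set j : Fin m := ⟨i.1 + 1, h⟩ with hj
    have hne : i ≠ j := fun e => by
      have := congrArg Fin.val e
      simp [hj] at this
    have b1 : (.inl i : Ip m) ≠ .inr j := by simp
    have b2 : (.inl i : Ip m) ≠ Sum.swap (.inr j) := by simpa using hne
    have hM := isM_NN_long (F := F) b1 b2 hs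
    rw [← C.nt_map hr.1 s] at hM
    rw [C.xt_conj h1.1 hM]
    refine C.mem_UU ⟨val_image hM h1.1, ?_⟩ _
    have hz : ∀ l : Kd m, pos (mkK (piL (.inl i : Ip m) (.inr j)) l) = tauL m i (pos l) := by
      intro l
      rcases l with ⟨⟩ | x
      · simp only [mkK_inl, pos_zr]
        unfold tauL
        split_ifs <;> omega
      · exact pos_piL (by rfl) x
    have e1 := hz (.inr v)
    rw [mkK_inr] at e1
    rw [e1, hz l]
    generalize pos (.inr v : Kd m) = p at *
    generalize pos l = q at *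
    unfold tauL
    split_ifs <;> omega
  · rw [ak_short h] at hr ⊢
    have hM := isM_NN_short (F := F) (.inl i : Ip m) hs
    rw [← C.nt_map hr.1 s] at hM
    rw [C.xt_conj h1.1 hM]
    refine C.mem_UU ⟨val_image hM h1.1, ?_⟩ _
    have hm : i.1 + 1 = m := by omega
    have hz : ∀ x : Ip m, pos (.inr (swap (.inl i : Ip m) (.inr i) x) : Kd m) = tauS m i.1 (pos (.inr x : Kd m)) := by
      intro x
      by_cases e1 : x = .inl i
      · rw [e1, swap_apply_left]
        simp only [pos_l, pos_r]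
        unfold tauS
        split_ifs <;> omega
      by_cases e2 : x = .inr i
      · rw [e2, swap_apply_right]
        simp only [pos_l, pos_r]
        unfold tauS
        split_ifs <;> omega
      · rw [swap_apply_of_ne_of_ne e1 e2]
        rcases x with a | a
        · have e3 : (a : ℕ) ≠ i := fun e => e1 (by rw [Fin.ext e])
          have ha := a.2
          simp only [pos_l]
          unfold tauS
          split_ifs <;> omega
        · have e3 : (a : ℕ) ≠ i := fun e => e2 (by rw [Fin.ext e])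
          have ha := a.2
          simp only [pos_r]
          unfold tauS
          split_ifs <;> omega
    have e1 : pos (mkK (swap (.inl i : Ip m) (.inr i)) l) = tauS m i.1 (pos l) := by
      rcases l with ⟨⟩ | x
      · simp only [mkK_inl, pos_zr]
        unfold tauS
        split_ifs <;> omega
      · exact hz x
    simp only [Sum.swap_inl]
    rw [hz, e1]
    have n2 : pos l ≠ pos (.inr v : Kd m) := fun e => h1.1.1 (pos_inj e)
    have n3 : pos (.inr v : Kd m) ≠ m := fun e => pos_ne v e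
    generalize pos (.inr v : Kd m) = p at *
    generalize pos l = q at *
    unfold tauS
    split_ifs <;> omega

/-- The dichotomy. -/
theorem dichotomy {n : Γ} {π : Perm (Ip m)} {c : Ip m → F} {c₀ : F} (hn : IsM (C.σ n) π c c₀) (i : Fin m) :
    (∀ a : F, n⁻¹ * C.xt (.inl i) (ak i) a * n ∈ C.UU) ∨ (∀ b : F, n⁻¹ * C.xt (.inr i) (bar (ak i)) b * n ∈ C.UU) := by
  have hr := pr_simple i
  have hv := hr.1
  have hv' := val_bar hv
  have hM : IsM (C.σ n⁻¹) π⁻¹ (fun u => (c (π⁻¹ u))⁻¹) c₀⁻¹ := by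
    rw [map_inv]
    exact hn.inv
  have hV := val_image hM hv
  set P := pos (.inr (π⁻¹ (.inl i)) : Kd m) with hP
  set Q := pos (mkK π⁻¹ (ak i)) with hQ
  have hPQ : P + Q ≠ 2 * m := by
    intro e
    apply hV.2
    apply pos_inj
    rw [pos_swap, ← hP, ← hQ]
    omega
  have e0 : ∀ t : F, ∀ u k, Val u k → n⁻¹ * C.xt u k t * n = n⁻¹ * C.xt u k t * (n⁻¹)⁻¹ := by
    intro t u k _
    rw [inv_inv]
  by_cases hlt : P + Q < 2 * m
  · left
    intro a
    rw [e0 a _ _ hv, C.xt_conj hv hM]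
    exact C.mem_UU ⟨hV, hlt⟩ _
  · right
    intro b
    change n⁻¹ * C.xt (Sum.inl i).swap (bar (ak i)) b * n ∈ C.UU
    rw [e0 b _ _ hv', C.xt_conj hv' hM]
    refine C.mem_UU ⟨val_image hM hv', ?_⟩ _
    have e1 : π⁻¹ (Sum.inl i : Ip m).swap = Sum.swap (π⁻¹ (.inl i)) := hM.swap_eq (.inl i)
    rw [e1, pos_swap, pos_mkK_bar hM]
    have p1 := pos_le (.inr (π⁻¹ (.inl i)) : Kd m)
    have p2 := pos_le (mkK π⁻¹ (ak i))
    omega

/-- The closure of the positive part and the simple Weyl elements. -/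
def SS : Subgroup Γ :=
  Subgroup.closure ((C.UU : Set Γ) ∪ {w | ∃ (i : Fin m) (s : F), s ≠ 0 ∧ w = C.nt (.inl i) (ak i) s})

theorem UU_le_SS : C.UU ≤ C.SS := fun _ h => Subgroup.subset_closure (Or.inl h)

theorem nt_mem_SS (i : Fin m) {s : F} (hs : s ≠ 0) : C.nt (.inl i) (ak i) s ∈ C.SS :=
  Subgroup.subset_closure (Or.inr ⟨i, s, hs, rfl⟩)

theorem pos_mem_SS {u : Ip m} {k : Kd m} (hr : Pr u k) (t : F) : C.xt u k t ∈ C.SS := C.UU_le_SS (C.mem_UU hr t)

/-- The negative short root elements are in the closure. -/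
theorem short_neg_mem : ∀ (d : ℕ) (i : Fin m), m - 1 - i.1 = d → ∀ t : F, C.xt (.inr i) zr t ∈ C.SS := by
  intro d
  induction d with
  | zero =>
    intro i hi t
    have hs : ¬ i.1 + 1 < m := by
      have := i.2
      omega
    by_cases ht0 : t = 0
    · rw [ht0, C.xt_zero (val_zr _)]
      exact one_mem _
    · have h1 := C.nt_mem_SS i (inv_ne_zero ht0)
      rw [ak_short hs] at h1
      have h2 : Pr (.inl i : Ip m) zr := by
        have := pr_simple i
        rwa [ak_short hs] at this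
      have e : C.xt (.inr i) zr t = C.xt (.inl i) zr (-t⁻¹) * C.nt (.inl i) zr t⁻¹ * C.xt (.inl i) zr (-t⁻¹) := by
        rw [nt, C.xt_neg h2.1]
        simp only [inv_inv, Sum.swap_inl, bar_inl]
        group
      rw [e]
      exact mul_mem (mul_mem (C.pos_mem_SS h2 _) h1) (C.pos_mem_SS h2 _)
  | succ d ih =>
    intro i hi t
    have hs : i.1 + 1 < m := by omega
    set j : Fin m := ⟨i.1 + 1, hs⟩ with hj
    have hne : i ≠ j := fun e => by
      have := congrArg Fin.val e
      simp [hj] at this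
    have h1 := C.nt_mem_SS i (one_ne_zero (α := F))
    rw [ak_long hs] at h1
    have hr := pr_simple i
    rw [ak_long hs] at hr
    have b1 : (.inl i : Ip m) ≠ .inr j := by simp
    have b2 : (.inl i : Ip m) ≠ Sum.swap (.inr j) := by simpa using hne
    have hM := isM_NN_long (F := F) b1 b2 one_ne_zero
    rw [← C.nt_map hr.1 1] at hM
    have e := C.xt_conj (val_zr (.inr j : Ip m)) hM (-t)
    rw [piL_v b1 b2, mkK_inl, cL_v b1 b2] at e
    have e2 : -(1 : F)⁻¹ * ck (cL (.inl i : Ip m) (.inr j) 1) 1 zr * -t = t := by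
      simp
    rw [e2] at e
    have h3 : C.xt (.inr j) zr (-t) ∈ C.SS := ih j (by simp [hj]; omega) _
    have h4 := mul_mem (mul_mem h1 h3) (inv_mem h1)
    rw [e] at h4
    exact h4

theorem short_mem (u : Ip m) (t : F) : C.xt u zr t ∈ C.SS := by
  rcases u with a | a
  · refine C.pos_mem_SS ⟨val_zr _, ?_⟩ t
    simp
    omega
  · exact C.short_neg_mem _ a rfl t

theorem xt_mem_SS {u : Ip m} {k : Kd m} (hv : Val u k) (t : F) : C.xt u k t ∈ C.SS := by
  rcases k with ⟨⟩ | v
  · exact C.short_mem u t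
  · have h := val_idx hv
    have e := C.rel_T3 h (t / 2) 1
    have e2 : 2 * (t / 2) * (1 : F) = t := by
      have := C.h2
      field_simp
    rw [e2] at e
    rw [← e]
    have h1 := C.short_mem (F := F) u (t / 2)
    have h2 := C.short_mem (F := F) v 1
    simp only [cm]
    exact mul_mem (mul_mem (mul_mem h1 h2) (inv_mem h1)) (inv_mem h2)

theorem exists_SS_lift {h : OO m F} (hh : h ∈ Om m F) : ∃ g ∈ C.SS, C.σ g = h := by
  have hm2 : 2 ≤ m := by have := C.h3; omega
  rw [Om_eq_LL C.h2 hm2] at hh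
  induction hh using Subgroup.closure_induction with
  | mem y hy =>
    obtain ⟨u, k, t, rfl⟩ := hy
    by_cases h1 : k = .inr u
    · exact ⟨1, one_mem _, by rw [h1, XX_self, map_one]⟩
    by_cases h2 : k = .inr u.swap
    · exact ⟨1, one_mem _, by rw [XX_not h2, map_one]⟩
    · have hv : Val u k := ⟨h1, h2⟩
      exact ⟨_, C.xt_mem_SS hv t, C.xt_map hv t⟩
  | one => exact ⟨1, one_mem _, map_one _⟩
  | mul x y _ _ hx hy =>
    obtain ⟨a, ha, rfl⟩ := hx
    obtain ⟨b, hb, rfl⟩ := hy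
    exact ⟨a * b, mul_mem ha hb, map_mul _ _ _⟩
  | inv x _ hx =>
    obtain ⟨a, ha, rfl⟩ := hx
    exact ⟨a⁻¹, inv_mem ha, map_inv _ _⟩

/-- In a perfect central extension, everything is in the closure. -/
theorem SS_top (hp : commutator Γ = ⊤) : C.SS = ⊤ := by
  rw [eq_top_iff, ← hp, commutator_def, Subgroup.commutator_le]
  intro g _ h _
  obtain ⟨a, ha, ea⟩ := C.exists_SS_lift (C.hm g)
  obtain ⟨b, hb, eb⟩ := C.exists_SS_lift (C.hm h)
  have e : g * h * g⁻¹ * h⁻¹ = cm a b := C.cm_congr ea.symm eb.symm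
  rw [commutatorElement_def, e]
  simp only [cm]
  exact mul_mem (mul_mem (mul_mem ha hb) (inv_mem ha)) (inv_mem hb)

/-- **The Bruhat decomposition.** An element of the kernel is in the monomial part. -/
theorem ker_mem_N (hH : HH m F) (hp : commutator Γ = ⊤) {N : Subgroup Γ}
    (hN : ∀ n ∈ N, ∃ (π : Perm (Ip m)) (c : Ip m → F) (c₀ : F), IsM (C.σ n) π c c₀)
    (hw : ∀ (i : Fin m) (s : F), s ≠ 0 → C.nt (.inl i) (ak i) s ∈ N) {a : Γ} (ha : C.σ a = 1) : a ∈ N := by
  have key := bruhat_abs (F := F) (U := C.UU) (N := N) (U' := C.UP) (x := fun i t => C.xt (.inl i) (ak i) t)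
    (y := fun i t => C.xt (.inr i) (bar (ak i)) t)
    (fun i s t => C.xt_add (pr_simple i).1 s t) (fun i s t => C.xt_add (val_bar (pr_simple i).1) s t)
    (fun i t => C.mem_UU (pr_simple i) t) (fun i s hs => hw i s hs) (fun i u hu => C.UU_dec hH i hu)
    (fun i s hs u' hu' => by
      have h1 : C.UP i ≤ (C.UU).comap (MulAut.conj (C.nt (.inl i) (ak i) s)).toMonoidHom := by
        rw [UP, Subgroup.closure_le]
        rintro _ ⟨v, l, t, h1, h2, rfl⟩
        exact C.nt_conj_pos i hs h1 h2 t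
      exact h1 hu')
    (fun i s hs a => C.nt_conj_simple i hs a)
    (fun i n hn => by
      obtain ⟨π, c, c₀, hM⟩ := hN n hn
      exact C.dichotomy hM i)
  have hS : a ∈ C.SS := by
    rw [C.SS_top hp]
    trivial
  obtain ⟨u, hu, n, hn, u', hu', rfl⟩ := key a hS
  obtain ⟨π, c, c₀, hM⟩ := hN n hn
  have h1 : C.σ (u⁻¹ * u'⁻¹) = C.σ n := by
    rw [map_mul, map_mul] at ha
    rw [map_mul, map_inv, map_inv]
    rw [inv_mul_eq_iff_eq_mul]
    exact inv_eq_of_mul_eq_one_left ha
  have h2 : u⁻¹ * u'⁻¹ ∈ C.UU := mul_mem (inv_mem hu) (inv_mem hu')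
  have h3 := C.Qa_isR h2
  rw [h1] at h3
  have h4 := mono_unip hM h3
  have h5 : u⁻¹ * u'⁻¹ = 1 := C.UU_inj hH h2 (by rw [h1, h4])
  have h6 : u' = u⁻¹ := by
    have := mul_eq_one_iff_eq_inv.mp h5
    rw [_root_.inv_inj] at this
    rw [this, inv_inv]
  rw [h6]
  have h7 := Subgroup.mem_center_iff.mp (C.mem_center h4) u
  have e : u * n * u⁻¹ = n := by
    rw [h7]
    group
  rw [e]
  exact hn

end CE

end Cfsg.Agent.Lib.SpinB
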