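import Mathlib
import Cfsg.Agent.Lib.SpinB.Bruhat
import Cfsg.Agent.Lib.Steinberg.CTR.RecogA

/-!
# Central extensions of the odd orthogonal groups: the monomial part
-/

set_option autoImplicit false
set_option linter.unusedSectionVars false
set_option linter.unusedSimpArgs false
set_option linter.unusedVariables false

namespace Cfsg.Agent.Lib.SpinB

open Matrix QuadraticMap Equiv
open Cfsg.Agent.Lib.Classical.Orth.Basic
open Cfsg.Agent.Lib.Classical.Orth.Models
open Cfsg.Agent.Lib.Classical.Orth.Siegel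
open Cfsg.Agent.Lib.Classical.Orth.Generation
open Cfsg.Agent.Lib.Sporadic.Stem
open Cfsg.Agent.Lib.Steinberg.Family Cfsg.Agent.Lib.Steinberg.LinearStem Cfsg.Agent.Lib.Steinberg.CTR

variable {m : ℕ} {F : Type*} [Field F]

theorem IsM.ck_bar {g : OO m F} {π : Perm (Ip m)} {c : Ip m → F} {c₀ : F} (h : IsM g π c c₀) (k : Kd m) :
    ck c c₀ (bar k) = (ck c c₀ k)⁻¹ := by
  rcases k with ⟨⟩ | v
  · simp only [bar_inl, ck_inl]
    exact eq_inv_of_mul_eq_one_left h.sq0
  · simp only [bar_inr, ck_inr]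
    exact eq_inv_of_mul_eq_one_right (h.mul_swap v)

theorem four_le {i j k l : Fin m} (h1 : i ≠ j) (h2 : i ≠ k) (h3 : i ≠ l) (h4 : j ≠ k) (h5 : j ≠ l) (h6 : k ≠ l) : 4 ≤ m := by
  have e : ({i, j, k, l} : Finset (Fin m)).card = 4 := by
    rw [Finset.card_insert_of_notMem (by simp [h1, h2, h3]), Finset.card_insert_of_notMem (by simp [h4, h5]),
      Finset.card_pair h6]
  have := Finset.card_le_univ ({i, j, k, l} : Finset (Fin m))
  rw [e, Fintype.card_fin] at this
  exact this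

/-- The product of two long Weyl elements for the same root. -/
theorem isM_NN_mul {u v : Ip m} (huv : u ≠ v) (huv' : u ≠ v.swap) {s t : F} (hs : s ≠ 0) (ht : t ≠ 0) :
    IsM (NN u (.inr v) s * NN u (.inr v) t) 1 (dL u v (-(s * t⁻¹))) 1 := by
  have h1 := (isM_NN_long huv huv' hs).mul (isM_NN_long (F := F) huv huv' ht)
  have e1 : piL u v * piL u v = 1 := by
    have := piL_inv huv huv'
    nth_rw 1 [← this]
    exact inv_mul_cancel _
  have e2 : (fun w => cL u v t w * cL u v s (piL u v w)) = dL u v (-(s * t⁻¹)) := by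
    funext w
    by_cases h1 : w = u
    · subst h1
      rw [piL_u huv huv', cL_vb huv huv', cL_u huv huv']
      simp [dL]
      ring
    by_cases h3 : w = v
    · subst h3
      rw [piL_v huv huv', cL_ub huv huv', cL_v huv huv']
      simp [dL]
      ring
    by_cases h4 : w = u.swap
    · subst h4
      rw [piL_ub huv huv', cL_v huv huv', cL_ub huv huv']
      simp [dL, swap_ne u, bne2 huv', h3]
    by_cases h2 : w = v.swap
    · subst h2
      rw [piL_vb huv huv', cL_u huv huv', cL_vb huv huv']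
      simp [dL, h1, h3]
    · rw [piL_o huv huv' h1 h2 h3 h4, cL_o huv huv' s h1 h2 h3 h4, cL_o huv huv' t h1 h2 h3 h4]
      simp [dL, h1, h2, h3, h4]
  rw [e1, e2, one_mul] at h1
  exact h1

theorem X_w_w {a b : Fin m} (hab : a ≠ b) {κ u : F} (hκ : κ ≠ 0) (hu : u ≠ 0) :
    (X (Fin m) F).w a b (κ * u) * (X (Fin m) F).w a b (-κ) = (X (Fin m) F).h a b u := by
  have h1 := X_h_mul (ι := Fin m) hab (mul_ne_zero hκ hu) (inv_ne_zero hκ)
  have e : κ * u * κ⁻¹ = u := by
    field_simp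
  rw [e, ← X_h_inv hab hκ] at h1
  rw [← h1]
  simp only [SFam.h]
  rw [_root_.mul_inv_rev, SFam.w_inv _ hab, SFam.w_inv _ hab, neg_neg]
  have : (X (Fin m) F).w a b (-1) * (X (Fin m) F).w a b 1 = 1 := by
    rw [← SFam.w_inv _ hab]
    exact inv_mul_cancel _
  rw [mul_assoc ((X (Fin m) F).w a b (κ * u)), ← mul_assoc ((X (Fin m) F).w a b (-1)), this, one_mul]

theorem X_h_swap {a b : Fin m} (hab : a ≠ b) {u : F} (hu : u ≠ 0) :
    (X (Fin m) F).h b a u = ((X (Fin m) F).h a b u)⁻¹ := by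
  apply eq_inv_of_mul_eq_one_left
  rw [X_h hab hu, X_h hab.symm hu]
  apply SpecialLinearGroup.coeMonoidHom_injective
  simp only [map_mul, SpecialLinearGroup.coeMonoidHom_apply, SpecialLinearGroup.diag2n_coe, diagonal_mul_diagonal, map_one,
    SpecialLinearGroup.coe_one]
  rw [← Matrix.diagonal_one]
  congr 1
  funext k
  by_cases h1 : k = a
  · subst h1
    simp [hab, hu]
  by_cases h2 : k = b
  · subst h2
    simp [h1, hu]
  · simp [h1, h2]

theorem piL_sum {i j : Fin m} : piL (.inl i : Ip m) (.inr j) = Perm.sumCongr (swap i j) (swap i j) := by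
  rw [piL]
  simp only [Sum.swap_inr, Sum.swap_inl]
  rw [← Perm.sumCongr_swap_refl, ← Perm.sumCongr_refl_swap, Perm.sumCongr_mul, swap_comm j i]
  rfl

namespace CE

variable {Γ : Type*} [Group Γ] (C : CE m F Γ) [Fintype F]

theorem nt_conj {u : Ip m} {k : Kd m} (hv : Val u k) {γ : Γ} {π : Perm (Ip m)} {c : Ip m → F} {c₀ : F}
    (h : IsM (C.σ γ) π c c₀) (s : F) :
    γ * C.nt u k s * γ⁻¹ = C.nt (π u) (mkK π k) (c u * ck c c₀ k * s) := by
  have e : γ * C.nt u k s * γ⁻¹ = (γ * C.xt u k s * γ⁻¹) * (γ * C.xt u.swap (bar k) s⁻¹ * γ⁻¹) * (γ * C.xt u k s * γ⁻¹) := by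
    simp only [nt]
    group
  rw [e, C.xt_conj hv h, C.xt_conj (val_bar hv) h, nt, h.swap_eq, mkK_bar h, h.ck_bar]
  have e2 : c u.swap = (c u)⁻¹ := eq_inv_of_mul_eq_one_right (h.mul_swap u)
  rw [e2, mul_inv, mul_inv]

theorem nt_symm {u v : Ip m} (h : idx u ≠ idx v) (t : F) : C.nt u (.inr v) t = C.nt v (.inr u) (-t) := by
  have h' : idx u.swap ≠ idx v.swap := by simpa using h
  simp only [nt, bar_inr]
  rw [C.xt_symm h t, C.xt_symm h' t⁻¹, inv_neg]

/-- The Steinberg family of the Levi factor. -/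
noncomputable def Yf : SFam (Fin m) F Γ where
  y i j t := C.xt (.inl i) (.inr (.inr j)) (-t)
  add i j h s t := by
    rw [neg_add, C.xt_add (val_long (by simpa using h))]
  comm i j k hij hjk hik s t := by
    have := C.rel_T2 (u := .inl i) (v := .inr j) (w := .inr k) (by simpa using hij) (by simpa using hik) (by simpa using hjk) (-s) (-t)
    simp only [cm, Sum.swap_inr] at this
    rw [this]
    congr 1
    ring
  comm' i j k l hij hkl hjk hil s t := by
    by_cases hik : i = k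
    · subst hik
      by_cases hjl : j = l
      · subst hjl
        have hv : Val (.inl i : Ip m) (.inr (.inr j)) := val_long (by simpa using hij)
        rw [← C.xt_add hv, ← C.xt_add hv, add_comm]
      · exact C.comm_ll (u := .inl i) (v := .inr j) (w := .inr l) (by simpa using hij) (by simpa using hil) (by simpa using hjl) _ _
    · by_cases hjl : j = l
      · subst hjl
        rw [C.xt_symm (u := .inl i) (v := .inr j) (by simpa using hij), C.xt_symm (u := .inl k) (v := .inr j) (by simpa using hkl)]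
        exact C.comm_ll (u := .inr j) (v := .inl i) (w := .inl k) (by simpa using hij.symm) (by simpa using hjk) (by simpa using hik) _ _
      · have h4 : 4 ≤ m := four_le hij hik hil hjk hjl hkl
        exact C.comm_far_l h4 (u := .inl i) (v := .inr j) (w := .inl k) (x := .inr l) (by simpa using hij) (by simpa using hik) (by simpa using hil)
          (by simpa using hjk) (by simpa using hjl) (by simpa using hkl) _ _

/-- The Levi factor. -/
noncomputable def psi : SpecialLinearGroup (Fin m) F →* Γ := Classical.choose (exists_hom_fam C.h3 C.Yf)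

theorem psi_y {i j : Fin m} (h : i ≠ j) (t : F) : C.psi ((X (Fin m) F).y i j t) = C.xt (.inl i) (.inr (.inr j)) (-t) :=
  Classical.choose_spec (exists_hom_fam C.h3 C.Yf) i j h t

theorem psi_w {i j : Fin m} (h : i ≠ j) (t : F) : C.psi ((X (Fin m) F).w i j t) = C.nt (.inl i) (.inr (.inr j)) (-t) := by
  simp only [SFam.w, map_mul, C.psi_y h, C.psi_y h.symm, nt, Sum.swap_inl, bar_inr, Sum.swap_inr]
  rw [C.xt_symm (u := .inl j) (v := .inr i) (by simpa using h.symm)]
  congr 2
  rw [inv_neg]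
  ring

theorem val_lr {i j : Fin m} (h : i ≠ j) : Val (.inl i : Ip m) (.inr (.inr j)) := val_long (by simpa using h)

theorem psi_w_map {i j : Fin m} (h : i ≠ j) (t : F) : C.σ (C.psi ((X (Fin m) F).w i j t)) = NN (.inl i) (.inr (.inr j)) (-t) := by
  rw [C.psi_w h, C.nt_map (val_lr h)]

/-- Diagonal elements of the Levi factor. -/
theorem isM_psi_h {a b : Fin m} (h : a ≠ b) {t : F} (ht : t ≠ 0) :
    IsM (C.σ (C.psi ((X (Fin m) F).h a b t))) 1 (dL (.inl a) (.inr b) t) 1 := by
  have b1 : (.inl a : Ip m) ≠ .inr b := by simp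
  have b2 : (.inl a : Ip m) ≠ Sum.swap (.inr b) := by simpa using h
  have := isM_NN_mul (F := F) b1 b2 (neg_ne_zero.mpr ht) (t := 1) one_ne_zero
  simp only [SFam.h, map_mul, C.psi_w_map h, neg_neg]
  have e : -(-t * (1 : F)⁻¹) = t := by simp
  rw [e] at this
  exact this

/-! ### The short Weyl elements -/

/-- The Weyl elements of the short roots. -/
noncomputable def fz (a : Fin m) (s : F) : Γ := C.nt (.inl a) zr s

/-- The torus elements of the short roots. -/
noncomputable def ef (a : Fin m) (s : F) : Γ := C.fz a s * (C.fz a 1)⁻¹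

theorem fz_map (a : Fin m) (s : F) : C.σ (C.fz a s) = NN (.inl a) zr s := C.nt_map (val_zr _) s

theorem isM_fz (a : Fin m) {s : F} (hs : s ≠ 0) : IsM (C.σ (C.fz a s)) (swap (.inl a) (.inr a)) (cS (.inl a) s) (-1) := by
  rw [fz_map]
  exact isM_NN_short _ hs

theorem fz_inv (a : Fin m) (s : F) : (C.fz a s)⁻¹ = C.fz a (-s) := C.nt_inv (val_zr _) s

theorem ef_map (a : Fin m) (s : F) : C.σ (C.ef a s) = HS (.inl a) s := by
  simp only [ef, map_mul, map_inv, fz_map, HS]

theorem isM_ef (a : Fin m) {s : F} (hs : s ≠ 0) : IsM (C.σ (C.ef a s)) 1 (dS (.inl a) s) 1 := by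
  rw [ef_map]
  exact isM_HS _ hs

theorem ef_one (a : Fin m) : C.ef a (1 : F) = 1 := by
  simp [ef]

theorem fz_eq_ef (a : Fin m) (s : F) : C.fz a s = C.ef a s * C.fz a 1 := by
  simp [ef]

/-- Conjugation of a short Weyl element by a diagonal element of the Levi factor. -/
theorem psi_h_fz {a b : Fin m} (h : a ≠ b) {t : F} (ht : t ≠ 0) (r : F) :
    C.psi ((X (Fin m) F).h a b t) * C.fz a r * (C.psi ((X (Fin m) F).h a b t))⁻¹ = C.fz a (t * r) := by
  have := C.nt_conj (val_zr (.inl a : Ip m)) (C.isM_psi_h h ht) r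
  unfold fz
  simpa [dL] using this

theorem ef_eq {a b : Fin m} (h : a ≠ b) {t : F} (ht : t ≠ 0) :
    C.ef a t = C.psi ((X (Fin m) F).h a b t) * (C.fz a 1 * (C.psi ((X (Fin m) F).h a b t))⁻¹ * (C.fz a 1)⁻¹) := by
  have := C.psi_h_fz h ht 1
  rw [mul_one] at this
  rw [ef, ← this]
  group

/-- Conjugating a long Weyl element by a short Weyl element. -/
theorem fz_nt {a b : Fin m} (h : a ≠ b) (s : F) :
    C.fz a 1 * C.nt (.inl a) (.inr (.inr b)) s * (C.fz a 1)⁻¹ = C.nt (.inr a) (.inr (.inr b)) (-s) := by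
  have := C.nt_conj (val_lr h) (C.isM_fz a (one_ne_zero (α := F))) s
  rw [swap_apply_left, mkK_inr] at this
  have e : (swap (.inl a : Ip m) (.inr a)) (.inr b) = .inr b := swap_apply_of_ne_of_ne (by simp) (by simpa using h.symm)
  rw [e] at this
  rw [this]
  simp [cS, h.symm]

theorem psi_h_nt {a b : Fin m} (h : a ≠ b) {t : F} (ht : t ≠ 0) (s : F) :
    C.psi ((X (Fin m) F).h a b t) * C.nt (.inr a) (.inr (.inr b)) s * (C.psi ((X (Fin m) F).h a b t))⁻¹ = C.nt (.inr a) (.inr (.inr b)) s := by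
  have hv : Val (.inr a : Ip m) (.inr (.inr b)) := val_long (by simpa using h)
  have := C.nt_conj hv (C.isM_psi_h h ht) s
  rw [this]
  simp [dL, h, ht]

/-- The torus elements of the short roots are multiplicative. -/
theorem ef_mul (a : Fin m) {s t : F} (hs : s ≠ 0) (ht : t ≠ 0) : C.ef a s * C.ef a t = C.ef a (s * t) := by
  obtain ⟨b, hb, -⟩ := exists_third C.h3 a a
  have hab : a ≠ b := hb.symm
  set f := C.fz a 1 with hf
  let G : F → Γ := fun t => C.psi ((X (Fin m) F).h a b t)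
  have hG : ∀ s t : F, s ≠ 0 → t ≠ 0 → G s * G t = G (s * t) := by
    intro s t h1 h2
    simp only [G]
    rw [← map_mul, X_h_mul hab h1 h2]
  have hG' : ∀ s t : F, s ≠ 0 → t ≠ 0 → G s * G t = G t * G s := by
    intro s t h1 h2
    rw [hG s t h1 h2, hG t s h2 h1, mul_comm]
  -- the key commutation
  have key : ∀ s t : F, s ≠ 0 → t ≠ 0 → G s * (f * (G t)⁻¹ * f⁻¹) = (f * (G t)⁻¹ * f⁻¹) * G s := by
    intro s t h1 h2
    have e1 : (G t)⁻¹ = C.nt (.inl a) (.inr (.inr b)) (-t⁻¹) * C.nt (.inl a) (.inr (.inr b)) 1 := by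
      simp only [G]
      rw [← map_inv, X_h_inv hab h2]
      simp only [SFam.h, map_mul]
      rw [C.psi_w hab, C.psi_w hab, neg_neg]
    have e2 : f * (G t)⁻¹ * f⁻¹ = C.nt (.inr a) (.inr (.inr b)) (- -t⁻¹) * C.nt (.inr a) (.inr (.inr b)) (-1) := by
      rw [e1, ← C.fz_nt hab, ← C.fz_nt hab]
      simp only [hf]
      group
    rw [e2]
    have e3 := C.psi_h_nt hab h1 (- -t⁻¹)
    have e4 := C.psi_h_nt hab h1 (-1)
    rw [mul_inv_eq_iff_eq_mul] at e3 e4
    simp only [G]
    rw [← mul_assoc, e3, mul_assoc, e4]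
    simp only [mul_assoc]
  rw [C.ef_eq hab hs, C.ef_eq hab ht, C.ef_eq hab (mul_ne_zero hs ht)]
  change G s * (f * (G s)⁻¹ * f⁻¹) * (G t * (f * (G t)⁻¹ * f⁻¹)) = G (s * t) * (f * (G (s * t))⁻¹ * f⁻¹)
  have e5 : G s * (f * (G s)⁻¹ * f⁻¹) * (G t * (f * (G t)⁻¹ * f⁻¹)) = G s * G t * ((f * (G s)⁻¹ * f⁻¹) * (f * (G t)⁻¹ * f⁻¹)) := by
    rw [mul_assoc (G s), ← mul_assoc (f * (G s)⁻¹ * f⁻¹) (G t), ← key t s ht hs]
    simp only [mul_assoc]
  rw [e5, hG s t hs ht, ← hG s t hs ht, hG' s t hs ht]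
  group

/-- The torus elements of the short roots are related through the Levi factor. -/
theorem ef_eq_psi {a b : Fin m} (hab : a ≠ b) {t : F} (ht : t ≠ 0) :
    C.ef a t = C.psi ((X (Fin m) F).h a b (t * t)) * C.ef b t := by
  -- conjugation by the two short Weyl elements agree on the Weyl elements
  have e1 : ∀ s : F, C.fz a 1 * C.psi ((X (Fin m) F).w a b s) * (C.fz a 1)⁻¹ = C.fz b 1 * C.psi ((X (Fin m) F).w b a (-s)) * (C.fz b 1)⁻¹ := by
    intro s
    rw [C.psi_w hab, C.psi_w hab.symm, C.fz_nt hab, C.fz_nt hab.symm, C.nt_symm (u := .inr a) (v := .inr b) (by simpa using hab), neg_neg]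
  have e2 : ∀ s : F, s ≠ 0 → C.fz a 1 * C.psi ((X (Fin m) F).h a b s) * (C.fz a 1)⁻¹ = C.fz b 1 * C.psi ((X (Fin m) F).h b a s) * (C.fz b 1)⁻¹ := by
    intro s hs
    have e3 := X_w_w (F := F) hab.symm (κ := -1) (neg_ne_zero.mpr one_ne_zero) hs
    rw [neg_neg, neg_mul, one_mul] at e3
    rw [← e3]
    simp only [SFam.h, map_mul]
    have e4 := e1 s
    have e5 := e1 (-1)
    rw [neg_neg] at e5
    calc _ = (C.fz a 1 * C.psi ((X (Fin m) F).w a b s) * (C.fz a 1)⁻¹) * (C.fz a 1 * C.psi ((X (Fin m) F).w a b (-1)) * (C.fz a 1)⁻¹) := by group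
      _ = _ := by
        rw [e4, e5]
        group
  have e6 := e2 t⁻¹ (inv_ne_zero ht)
  rw [C.ef_eq hab ht, C.ef_eq hab.symm ht, ← map_inv, ← map_inv, X_h_inv hab ht, X_h_inv hab.symm ht, e6]
  have e7 : C.psi ((X (Fin m) F).h a b (t * t)) = C.psi ((X (Fin m) F).h a b t) * C.psi ((X (Fin m) F).h a b t) := by
    rw [← map_mul, X_h_mul hab ht ht]
  rw [e7, X_h_swap hab ht, map_inv, mul_assoc]
  group

end CE

end Cfsg.Agent.Lib.SpinB
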