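import Mathlib
import Cfsg.Agent.Lib.SpinB.NPart

/-!
# Central extensions of the odd orthogonal groups: the normal form in the monomial part
-/

set_option autoImplicit false
set_option linter.unusedSectionVars false
set_option linter.unusedSimpArgs false
set_option linter.unusedVariables false

namespace Cfsg.Agent.Lib.SpinB

open Matrix QuadraticMap Equiv
open Cfsg.Agent.Lib.Classical.Orth.Basic
open Cfsg.Agent.Lib.Classical.Orth.Models
open Cfsg.Agent.Lib.Classical.Orth.Siegel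
open Cfsg.Agent.Lib.Classical.Orth.Generation
open Cfsg.Agent.Lib.Sporadic.Stem
open Cfsg.Agent.Lib.Steinberg.Family Cfsg.Agent.Lib.Steinberg.LinearStem Cfsg.Agent.Lib.Steinberg.CTR

variable {m : ℕ} {F : Type*} [Field F]

/-! ### Products along a list -/

section Lists

variable {Γ : Type*} [Group Γ] {ι : Type*} [DecidableEq ι] (f : ι → Γ) (z : Γ)

/-- The product along a list. -/
def Fl (L : List ι) : Γ := (L.map f).prod

@[simp] theorem Fl_nil : Fl f ([] : List ι) = 1 := rfl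
@[simp] theorem Fl_cons (x : ι) (L : List ι) : Fl f (x :: L) = f x * Fl f L := by simp [Fl]

variable {f z}

theorem Fl_flip (hz : z ∈ Subgroup.center Γ) (hzz : z * z = 1) (hff : ∀ a, f a * f a = z)
    (hfg : ∀ a b, a ≠ b → f a * f b = z * (f b * f a)) (b : ι) (p : ι → Bool) (L : List ι) (hL : L.Nodup) (hb : b ∈ L) :
    ∃ ε, (ε = 1 ∨ ε = z) ∧ f b * Fl f (L.filter p) = ε * Fl f (L.filter (Function.update p b (!p b))) := by
  induction L with
  | nil => simp at hb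
  | cons x L ih =>
    rw [List.nodup_cons] at hL
    obtain ⟨hx, hL⟩ := hL
    set q := Function.update p b (!p b) with hq
    have hq1 : ∀ y, y ≠ b → q y = p y := fun y hy => Function.update_of_ne hy _ _
    have hq2 : q b = !p b := Function.update_self _ _ _
    by_cases hxb : x = b
    · subst hxb
      have e : L.filter q = L.filter p := List.filter_congr (fun y hy => by
        rw [hq1 y (fun e => hx (e ▸ hy))])
      cases hp : p x
      · refine ⟨1, Or.inl rfl, ?_⟩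
        have e1 : q x = true := by rw [hq2, hp]; rfl
        simp [List.filter_cons, hp, e1, e]
      · refine ⟨z, Or.inr rfl, ?_⟩
        have e1 : q x = false := by rw [hq2, hp]; rfl
        simp [List.filter_cons, hp, e1, e, ← mul_assoc, hff]
    · have hb' : b ∈ L := (List.mem_cons.mp hb).resolve_left (Ne.symm hxb)
      obtain ⟨ε, hε, e⟩ := ih hL hb'
      have e2 : q x = p x := hq1 x hxb
      cases hp : p x
      · refine ⟨ε, hε, ?_⟩
        simpa [List.filter_cons, hp, e2] using e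
      · have e3 : q x = true := by rw [e2, hp]
        have hc : ∀ g, ε * g = g * ε := by
          intro g
          rcases hε with rfl | rfl
          · simp
          · exact (Subgroup.mem_center_iff.mp hz g).symm
        have hc' : ∀ g, z * g = g * z := fun g => (Subgroup.mem_center_iff.mp hz g).symm
        have e4 : f b * (f x * Fl f (L.filter p)) = (z * ε) * (f x * Fl f (L.filter q)) := by
          calc f b * (f x * Fl f (L.filter p)) = (f b * f x) * Fl f (L.filter p) := by group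
            _ = z * (f x * f b) * Fl f (L.filter p) := by rw [hfg _ _ (Ne.symm hxb)]
            _ = z * f x * (f b * Fl f (L.filter p)) := by group
            _ = z * f x * (ε * Fl f (L.filter q)) := by rw [e]
            _ = z * (f x * ε) * Fl f (L.filter q) := by group
            _ = z * (ε * f x) * Fl f (L.filter q) := by rw [hc]
            _ = _ := by group
        refine ⟨z * ε, ?_, ?_⟩
        · rcases hε with rfl | rfl
          · right
            rw [mul_one]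
          · left
            exact hzz
        · simpa [List.filter_cons, hp, e3] using e4

theorem mem_closure_Fl (hz : z ∈ Subgroup.center Γ) (hzz : z * z = 1) (hff : ∀ a, f a * f a = z)
    (hfg : ∀ a b, a ≠ b → f a * f b = z * (f b * f a)) (L : List ι) (hL : L.Nodup) (hL' : ∀ b, b ∈ L) {E : Γ}
    (hE : E ∈ Subgroup.closure (Set.range f)) : ∃ (p : ι → Bool) (ε : Γ), (ε = 1 ∨ ε = z) ∧ E = ε * Fl f (L.filter p) := by
  have hc : ∀ ε, (ε = 1 ∨ ε = z) → ∀ g, ε * g = g * ε := by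
    intro ε hε g
    rcases hε with rfl | rfl
    · simp
    · exact (Subgroup.mem_center_iff.mp hz g).symm
  have step : ∀ (b : ι) (E : Γ), (∃ (p : ι → Bool) (ε : Γ), (ε = 1 ∨ ε = z) ∧ E = ε * Fl f (L.filter p)) →
      ∃ (p : ι → Bool) (ε : Γ), (ε = 1 ∨ ε = z) ∧ f b * E = ε * Fl f (L.filter p) := by
    rintro b _ ⟨p, ε, hε, rfl⟩
    obtain ⟨ε', hε', e⟩ := Fl_flip hz hzz hff hfg b p L hL (hL' b)
    refine ⟨Function.update p b (!p b), ε * ε', ?_, ?_⟩
    · rcases hε with rfl | rfl <;> rcases hε' with rfl | rfl <;> simp [hzz]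
    · calc f b * (ε * Fl f (L.filter p)) = (f b * ε) * Fl f (L.filter p) := by group
        _ = (ε * f b) * Fl f (L.filter p) := by rw [hc ε hε]
        _ = ε * (f b * Fl f (L.filter p)) := by group
        _ = _ := by rw [e]; group
  induction hE using Subgroup.closure_induction_left with
  | one => exact ⟨fun _ => false, 1, Or.inl rfl, by simp⟩
  | mul_left c hc' g _ hg =>
    obtain ⟨b, rfl⟩ := hc'
    exact step b g hg
  | inv_mul_cancel c hc' g _ hg =>
    obtain ⟨b, rfl⟩ := hc'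
    obtain ⟨p, ε, hε, e⟩ := step b g hg
    have e1 : (f b)⁻¹ = z * f b := by
      apply inv_eq_of_mul_eq_one_left
      rw [mul_assoc, hff, hzz]
    refine ⟨p, z * ε, ?_, ?_⟩
    · rcases hε with rfl | rfl <;> simp [hzz]
    · rw [e1, mul_assoc, e]
      group

end Lists

theorem IsM.perm_one {π : Perm (Ip m)} {c : Ip m → F} {c₀ : F} (h : IsM (1 : OO m F) π c c₀) : π = 1 := by
  ext1 u
  have h1 := h.inr u
  rw [act_one] at h1
  have h2 := congrFun h1 (.inr u)
  rw [ee_self, Pi.smul_apply, ee_apply, smul_eq_mul] at h2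
  by_cases e : u = π u
  · exact e.symm
  · rw [if_neg (fun e' => e (Sum.inr_injective e'))] at h2
    simp at h2

theorem IsM.eq_one {g : OO m F} {c : Ip m → F} {c₀ : F} (h : IsM g 1 c c₀) (hc : ∀ u, c u = 1) (hc₀ : c₀ = 1) : g = 1 := by
  apply ext_ee
  intro k
  rw [h.act_ee, act_one]
  rcases k with ⟨⟩ | u
  · simp [hc₀]
  · simp [hc]

namespace CE

variable {Γ : Type*} [Group Γ] (C : CE m F Γ) [Fintype F]

/-- Monomial elements of the Levi factor. -/
def Lam (M : SpecialLinearGroup (Fin m) F) : Prop :=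
  ∃ (r : Perm (Fin m)) (c : Ip m → F) (c₀ : F), IsM (C.σ (C.psi M)) (Perm.sumCongr r r) c c₀

theorem lam_one : C.Lam 1 := by
  refine ⟨1, fun _ => 1, 1, ?_⟩
  rw [map_one, map_one, Perm.sumCongr_one]
  exact IsM.one

theorem Lam.mul {C : CE m F Γ} {M M' : SpecialLinearGroup (Fin m) F} (h : C.Lam M) (h' : C.Lam M') : C.Lam (M * M') := by
  obtain ⟨r, c, c₀, h⟩ := h
  obtain ⟨r', c', c₀', h'⟩ := h'
  refine ⟨r * r', fun u => c' u * c (Perm.sumCongr r' r' u), c₀' * c₀, ?_⟩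
  rw [map_mul, map_mul, ← Perm.sumCongr_mul]
  exact h.mul h'

theorem lam_w {i j : Fin m} (hij : i ≠ j) {t : F} (ht : t ≠ 0) : C.Lam ((X (Fin m) F).w i j t) := by
  have b1 : (.inl i : Ip m) ≠ .inr j := by simp
  have b2 : (.inl i : Ip m) ≠ Sum.swap (.inr j) := by simpa using hij
  refine ⟨swap i j, cL (.inl i) (.inr j) (-t), 1, ?_⟩
  rw [C.psi_w_map hij, ← piL_sum]
  exact isM_NN_long b1 b2 (neg_ne_zero.mpr ht)

theorem lam_h {i j : Fin m} (hij : i ≠ j) {t : F} (ht : t ≠ 0) : C.Lam ((X (Fin m) F).h i j t) :=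
  (C.lam_w hij ht).mul (C.lam_w hij (neg_ne_zero.mpr one_ne_zero))

theorem lam_fz {M : SpecialLinearGroup (Fin m) F} (h : C.Lam M) (a : Fin m) {r : F} (hr : r ≠ 0) :
    ∃ (b : Fin m) (r' : F), r' ≠ 0 ∧ C.fz a r * C.psi M = C.psi M * C.fz b r' := by
  obtain ⟨p, c, c₀, hM⟩ := h
  have hM' : IsM (C.σ (C.psi M)⁻¹) (Perm.sumCongr p p)⁻¹ (fun u => (c ((Perm.sumCongr p p)⁻¹ u))⁻¹) c₀⁻¹ := by
    rw [map_inv]
    exact hM.inv
  have e := C.nt_conj (val_zr (.inl a : Ip m)) hM' r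
  rw [inv_inv] at e
  refine ⟨p⁻¹ a, (c ((Perm.sumCongr p p)⁻¹ (.inl a)))⁻¹ * c₀⁻¹ * r, mul_ne_zero (mul_ne_zero (hM'.ne (.inl a)) hM'.ne0) hr, ?_⟩
  have e2 : C.fz (p⁻¹ a) ((c ((Perm.sumCongr p p)⁻¹ (.inl a)))⁻¹ * c₀⁻¹ * r) =
      (C.psi M)⁻¹ * C.fz a r * C.psi M := by
    unfold fz
    rw [e]
    rfl
  rw [e2]
  group

theorem fz_ef (b l : Fin m) {s r : F} (hs : s ≠ 0) (hr : r ≠ 0) :
    ∃ r' : F, r' ≠ 0 ∧ C.fz b r * C.ef l s = C.ef l s * C.fz b r' := by
  have h := C.isM_ef l hs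
  refine ⟨(dS (.inl l) s (.inl b))⁻¹ * r, mul_ne_zero (inv_ne_zero (h.ne _)) hr, ?_⟩
  have e := C.nt_conj (val_zr (.inl b : Ip m)) h ((dS (.inl l) s (.inl b))⁻¹ * r)
  have e2 : C.ef l s * C.fz b ((dS (.inl l) s (.inl b))⁻¹ * r) * (C.ef l s)⁻¹ = C.fz b r := by
    unfold fz
    rw [e]
    have e3 : dS (.inl l) s (.inl b) * ck (dS (.inl l) s) 1 zr * ((dS (.inl l) s (.inl b))⁻¹ * r) = r := by
      have := h.ne (.inl b)
      simp only [ck_inl, mul_one]
      field_simp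
    rw [e3]
    rfl
  rw [← e2]
  group

theorem ef_comm_psi {b l : Fin m} (hbl : b ≠ l) {s u : F} (hs : s ≠ 0) (hu : u ≠ 0) :
    C.ef l s * C.psi ((X (Fin m) F).h b l u) = C.psi ((X (Fin m) F).h b l u) * C.ef l s := by
  have h := C.isM_ef l hs
  have hκ : (s * s)⁻¹ ≠ 0 := inv_ne_zero (mul_ne_zero hs hs)
  have e1 : ∀ t : F, C.ef l s * C.psi ((X (Fin m) F).w b l t) * (C.ef l s)⁻¹ = C.psi ((X (Fin m) F).w b l ((s * s)⁻¹ * t)) := by
    intro t
    rw [C.psi_w hbl, C.psi_w hbl, C.nt_conj (val_lr hbl) h]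
    simp only [Perm.one_apply, mkK_inr, ck_inr]
    congr 1
    simp [dS, hbl]
  have e2 := X_w_w (F := F) hbl hκ hu
  have e3 : C.ef l s * C.psi ((X (Fin m) F).h b l u) * (C.ef l s)⁻¹ = C.psi ((X (Fin m) F).h b l u) := by
    have e0 : (X (Fin m) F).h b l u = (X (Fin m) F).w b l u * (X (Fin m) F).w b l (-1) := rfl
    calc C.ef l s * C.psi ((X (Fin m) F).h b l u) * (C.ef l s)⁻¹
        = (C.ef l s * C.psi ((X (Fin m) F).w b l u) * (C.ef l s)⁻¹) * (C.ef l s * C.psi ((X (Fin m) F).w b l (-1)) * (C.ef l s)⁻¹) := by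
          rw [e0, map_mul]
          group
      _ = C.psi ((X (Fin m) F).w b l ((s * s)⁻¹ * u) * (X (Fin m) F).w b l (-(s * s)⁻¹)) := by
          rw [e1, e1, map_mul, mul_neg_one]
      _ = _ := by rw [e2]
  rw [mul_inv_eq_iff_eq_mul] at e3
  exact e3

theorem ef_eq_psi' (b l : Fin m) {r : F} (hr : r ≠ 0) :
    ∃ H, C.Lam H ∧ (∀ s : F, s ≠ 0 → C.ef l s * C.psi H = C.psi H * C.ef l s) ∧ C.ef b r = C.psi H * C.ef l r := by
  by_cases h : b = l
  · subst h
    exact ⟨1, C.lam_one, fun s _ => by simp, by simp⟩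
  · exact ⟨(X (Fin m) F).h b l (r * r), C.lam_h h (mul_ne_zero hr hr), fun s hs => C.ef_comm_psi h hs (mul_ne_zero hr hr),
      C.ef_eq_psi h hr⟩

/-- The group generated by the short Weyl elements of parameter one. -/
def EE : Subgroup Γ := Subgroup.closure (Set.range fun a : Fin m => C.fz a (1 : F))

/-- The normal form. -/
def NF (l : Fin m) (n : Γ) : Prop :=
  ∃ (M : SpecialLinearGroup (Fin m) F) (s : F) (E : Γ), C.Lam M ∧ s ≠ 0 ∧ E ∈ C.EE ∧ n = C.psi M * C.ef l s * E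

theorem NF_one (l : Fin m) : C.NF l 1 :=
  ⟨1, 1, 1, C.lam_one, one_ne_zero, one_mem _, by simp [ef_one]⟩

theorem NF_psi {l i j : Fin m} (hij : i ≠ j) {t : F} (ht : t ≠ 0) {n : Γ} (h : C.NF l n) :
    C.NF l (C.psi ((X (Fin m) F).w i j t) * n) := by
  obtain ⟨M, s, E, hM, hs, hE, rfl⟩ := h
  refine ⟨_ * M, s, E, (C.lam_w hij ht).mul hM, hs, hE, ?_⟩
  rw [map_mul]
  group

theorem NF_fz {l a : Fin m} {r : F} (hr : r ≠ 0) {n : Γ} (h : C.NF l n) : C.NF l (C.fz a r * n) := by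
  obtain ⟨M, s, E, hM, hs, hE, rfl⟩ := h
  obtain ⟨b, r₁, hr₁, e1⟩ := C.lam_fz hM a hr
  obtain ⟨r₂, hr₂, e2⟩ := C.fz_ef b l hs hr₁
  obtain ⟨H, hH, hc, e3⟩ := C.ef_eq_psi' b l hr₂
  refine ⟨M * H, s * r₂, C.fz b 1 * E, hM.mul hH, mul_ne_zero hs hr₂, mul_mem (Subgroup.subset_closure ⟨b, rfl⟩) hE, ?_⟩
  calc C.fz a r * (C.psi M * C.ef l s * E) = (C.fz a r * C.psi M) * C.ef l s * E := by group
    _ = C.psi M * (C.fz b r₁ * C.ef l s) * E := by rw [e1]; group
    _ = C.psi M * (C.ef l s * C.fz b r₂) * E := by rw [e2]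
    _ = C.psi M * (C.ef l s * C.psi H) * C.ef l r₂ * (C.fz b 1 * E) := by
      rw [C.fz_eq_ef b r₂, e3]
      group
    _ = C.psi M * C.psi H * (C.ef l s * C.ef l r₂) * (C.fz b 1 * E) := by
      rw [hc s hs]
      group
    _ = _ := by
      rw [C.ef_mul l hs hr₂, map_mul]

/-- The monomial part. -/
def NG : Subgroup Γ :=
  Subgroup.closure ({n | ∃ (i j : Fin m) (t : F), i ≠ j ∧ t ≠ 0 ∧ n = C.psi ((X (Fin m) F).w i j t)} ∪
    {n | ∃ (a : Fin m) (s : F), s ≠ 0 ∧ n = C.fz a s})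

theorem mem_NF (l : Fin m) {n : Γ} (hn : n ∈ C.NG) : C.NF l n := by
  induction hn using Subgroup.closure_induction_left with
  | one => exact C.NF_one l
  | mul_left c hc g _ hg =>
    rcases hc with ⟨i, j, t, hij, ht, rfl⟩ | ⟨a, s, hs, rfl⟩
    · exact C.NF_psi hij ht hg
    · exact C.NF_fz hs hg
  | inv_mul_cancel c hc g _ hg =>
    rcases hc with ⟨i, j, t, hij, ht, rfl⟩ | ⟨a, s, hs, rfl⟩
    · rw [← map_inv, SFam.w_inv _ hij]
      exact C.NF_psi hij (neg_ne_zero.mpr ht) hg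
    · rw [C.fz_inv]
      exact C.NF_fz (neg_ne_zero.mpr hs) hg

theorem NG_isM {n : Γ} (hn : n ∈ C.NG) : ∃ (π : Perm (Ip m)) (c : Ip m → F) (c₀ : F), IsM (C.σ n) π c c₀ := by
  induction hn using Subgroup.closure_induction with
  | mem y hy =>
    rcases hy with ⟨i, j, t, hij, ht, rfl⟩ | ⟨a, s, hs, rfl⟩
    · rw [C.psi_w_map hij]
      exact exists_isM_NN (val_lr hij) (neg_ne_zero.mpr ht)
    · exact ⟨_, _, _, C.isM_fz a hs⟩
  | one =>
    rw [map_one]
    exact ⟨_, _, _, IsM.one⟩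
  | mul x y _ _ hx hy =>
    obtain ⟨π, c, c₀, h⟩ := hx
    obtain ⟨π', c', c₀', h'⟩ := hy
    rw [map_mul]
    exact ⟨_, _, _, h.mul h'⟩
  | inv x _ hx =>
    obtain ⟨π, c, c₀, h⟩ := hx
    rw [map_inv]
    exact ⟨_, _, _, h.inv⟩

theorem simple_mem_NG (i : Fin m) {s : F} (hs : s ≠ 0) : C.nt (.inl i) (ak i) s ∈ C.NG := by
  by_cases h : i.1 + 1 < m
  · rw [ak_long h]
    have hne : i ≠ ⟨i.1 + 1, h⟩ := fun e => by
      have := congrArg Fin.val e
      simp at this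
    refine Subgroup.subset_closure (Or.inl ⟨i, ⟨i.1 + 1, h⟩, -s, hne, neg_ne_zero.mpr hs, ?_⟩)
    rw [C.psi_w hne, neg_neg]
  · rw [ak_short h]
    exact Subgroup.subset_closure (Or.inr ⟨i, s, hs, rfl⟩)

/-! ### The central element -/

/-- The central element. -/
noncomputable def zz (l : Fin m) : Γ := C.ef l (-1)

theorem ef_neg_one (a b : Fin m) : C.ef a (-1 : F) = C.ef b (-1) := by
  by_cases h : a = b
  · rw [h]
  · rw [C.ef_eq_psi h (neg_ne_zero.mpr one_ne_zero)]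
    have e : (-1 : F) * -1 = 1 := by ring
    rw [e, SFam.h_one _ h, map_one, one_mul]

theorem zz_sq (l : Fin m) : C.zz l * C.zz l = 1 := by
  have h1 : (-1 : F) ≠ 0 := neg_ne_zero.mpr one_ne_zero
  rw [zz, C.ef_mul l h1 h1]
  have e : (-1 : F) * -1 = 1 := by ring
  rw [e, ef_one]

theorem zz_map (l : Fin m) : C.σ (C.zz l) = 1 := by
  have h1 : (-1 : F) ≠ 0 := neg_ne_zero.mpr one_ne_zero
  refine (C.isM_ef l h1).eq_one ?_ rfl
  intro u
  simp only [dS]
  have e : (-1 : F) * -1 = 1 := by ring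
  rw [e]
  simp

theorem zz_center (l : Fin m) : C.zz l ∈ Subgroup.center Γ := C.mem_center (C.zz_map l)

theorem fz_sq (l a : Fin m) : C.fz a 1 * C.fz a 1 = C.zz l := by
  have e1 : C.ef a (-1 : F) = (C.fz a 1 * C.fz a 1)⁻¹ := by
    rw [ef, ← C.fz_inv, _root_.mul_inv_rev]
  have e2 : C.zz l = C.ef a (-1) := C.ef_neg_one l a
  have e3 := C.zz_sq l
  rw [e2, e1] at e3
  rw [e2, e1]
  have e4 := mul_eq_one_iff_eq_inv.mp e3
  rw [inv_inv] at e4
  exact e4.symm

theorem fz_comm (l : Fin m) {a b : Fin m} (h : a ≠ b) : C.fz a 1 * C.fz b 1 = C.zz l * (C.fz b 1 * C.fz a 1) := by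
  have e1 := C.nt_conj (val_zr (.inl b : Ip m)) (C.isM_fz a (one_ne_zero (α := F))) 1
  have e2 : (swap (.inl a : Ip m) (.inr a)) (.inl b) = .inl b := swap_apply_of_ne_of_ne (by simpa using h.symm) (by simp)
  rw [e2] at e1
  have e3 : C.fz a 1 * C.fz b 1 * (C.fz a 1)⁻¹ = C.fz b (-1) := by
    change C.fz a 1 * C.nt (.inl b) zr 1 * (C.fz a 1)⁻¹ = C.nt (.inl b) zr (-1)
    rw [e1]
    simp [cS, h.symm]
  rw [mul_inv_eq_iff_eq_mul] at e3
  rw [e3, ← C.fz_inv]
  have e4 : (C.fz b 1)⁻¹ = C.zz l * C.fz b 1 := by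
    apply inv_eq_of_mul_eq_one_left
    rw [mul_assoc, C.fz_sq l b, C.zz_sq]
  rw [e4]
  group

end CE

end Cfsg.Agent.Lib.SpinB
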