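import Mathlib
import Cfsg.Agent.Lib.SpinB.Cliff
import Cfsg.Agent.Lib.Schur.Basic
import Cfsg.Agent.Lib.Classical.Orth.Center

/-!
# The Schur multiplier of `Ω_{2m+1}(F)`
-/

set_option autoImplicit false
set_option linter.unusedSectionVars false
set_option linter.unusedSimpArgs false
set_option linter.unusedVariables false

namespace Cfsg.Agent.Lib.SpinB

open Matrix QuadraticMap Equiv
open Cfsg.Agent.Lib.Classical.Orth.Basic
open Cfsg.Agent.Lib.Classical.Orth.Models
open Cfsg.Agent.Lib.Classical.Orth.Siegel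
open Cfsg.Agent.Lib.Classical.Orth.Generation
open Cfsg.Agent.Lib.Steinberg.Cover
open Cfsg.Agent.Lib.Sporadic.Stem
open Cfsg.Agent.Lib.Schur.Basic
open scoped commutatorElement

universe u

section General

variable {E H G : Type*} [Group E] [Group H] [Group G]

/-- A stem extension of a perfect group is perfect. -/
theorem stem_perfect (σ : E →* H) (hσ : Cfsg.IsStemExtension σ) (hp : commutator H = ⊤) : commutator E = ⊤ := by
  rw [eq_top_iff]
  intro x _
  have h1 : σ x ∈ (commutator E).map σ := by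
    rw [map_commutator_eq_top σ hσ.1 hp]
    trivial
  obtain ⟨p, hp1, hp2⟩ := h1
  have h2 : p⁻¹ * x ∈ σ.ker := by
    rw [MonoidHom.mem_ker, map_mul, map_inv, hp2, inv_mul_cancel]
  have h3 := hσ.2.2 h2
  have h4 : x = p * (p⁻¹ * x) := by group
  rw [h4]
  exact Subgroup.mul_mem _ hp1 h3

/-- An element of a perfect central extension whose image is central is central. -/
theorem central_of_image (σ : E →* H) (hk : σ.ker ≤ Subgroup.center E) (hE : commutator E = ⊤) {z : E}
    (hz : ∀ x, σ z * σ x = σ x * σ z) : z ∈ Subgroup.center E := by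
  have hcen : ∀ x, cm z x ∈ Subgroup.center E := by
    intro x
    apply hk
    rw [MonoidHom.mem_ker]
    simp only [cm, map_mul, map_inv]
    rw [hz x]
    group
  let f : E →* E :=
    { toFun := fun x => cm z x
      map_one' := by simp [cm]
      map_mul' := by
        intro x y
        have e : cm z (x * y) = cm z x * (x * cm z y * x⁻¹) := by
          simp only [cm]
          group
        rw [e, conj_central x (hcen y)] }
  have h1 : commutator E ≤ f.ker := by
    show ⁅(⊤ : Subgroup E), ⊤⁆ ≤ _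
    refine Subgroup.commutator_le.mpr ?_
    intro a _ b _
    rw [MonoidHom.mem_ker, map_commutatorElement]
    have h2 : f a * f b = f b * f a := Subgroup.mem_center_iff.mp (hcen a) (f b) |>.symm
    rw [commutatorElement_def, h2]
    group
  rw [Subgroup.mem_center_iff]
  intro x
  have h2 : f x = 1 := h1 (by rw [hE]; trivial)
  have h3 : z * x * z⁻¹ * x⁻¹ = 1 := h2
  have h4 : z * x = x * z := by
    have h5 : z * x * z⁻¹ = x := by
      calc z * x * z⁻¹ = z * x * z⁻¹ * x⁻¹ * x := by group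
        _ = x := by rw [h3, one_mul]
    calc z * x = z * x * z⁻¹ * z := by group
      _ = x * z := by rw [h5]
  exact h4.symm

/-- A stem extension of a perfect central extension gives a central extension. -/
theorem central_comp' (σ : E →* H) (θ : H →* G) (hσ : Cfsg.IsStemExtension σ) (hp : commutator H = ⊤)
    (hθ : θ.ker ≤ Subgroup.center H) : (θ.comp σ).ker ≤ Subgroup.center E := by
  have hE := stem_perfect σ hσ hp
  intro z hz
  apply central_of_image σ hσ.2.1 hE
  intro x
  have hz1 : σ z ∈ θ.ker := hz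
  exact (Subgroup.mem_center_iff.mp (hθ hz1) (σ x)).symm

theorem iso2 {K : Type*} [Group K] {m : K} (hm : m ≠ 1) (hm2 : m * m = 1) (hall : ∀ x : K, x = 1 ∨ x = m) :
    Nonempty (K ≃* Multiplicative (ZMod 2)) := by
  have hc : m ^ 2 = 1 := by rw [pow_two, hm2]
  let φ : Multiplicative (ZMod 2) →* K := zmodHom 2 m hc
  have h0 : ∀ a : ZMod 2, a = 0 ∨ a = 1 := by decide
  have v1 : φ (Multiplicative.ofAdd (1 : ZMod 2)) = m := by
    show m ^ (1 : ZMod 2).val = m
    rw [show (1 : ZMod 2).val = 1 from rfl, pow_one]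
  have hinj : Function.Injective φ := by
    rw [injective_iff_map_eq_one]
    intro a ha
    rcases h0 (Multiplicative.toAdd a) with h | h
    · exact h
    · have : a = Multiplicative.ofAdd (1 : ZMod 2) := h
      rw [this, v1] at ha
      exact absurd ha hm
  have hsurj : Function.Surjective φ := by
    intro x
    rcases hall x with rfl | rfl
    · exact ⟨1, map_one _⟩
    · exact ⟨_, v1⟩
  exact ⟨(MulEquiv.ofBijective φ ⟨hinj, hsurj⟩).symm⟩

end General

variable {m : ℕ} {F : Type u} [Field F] [Fintype F]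

/-- The central extension attached to an extension of `Ω`. -/
noncomputable def ceOf {Γ : Type*} [Group Γ] (τ : Γ →* Om m F) (hs : Function.Surjective τ) (hc : τ.ker ≤ Subgroup.center Γ)
    (h2 : (2 : F) ≠ 0) (h3 : 3 ≤ m) : CE m F Γ where
  σ := (Om m F).subtype.comp τ
  hk := by
    intro x hx
    apply hc
    rw [MonoidHom.mem_ker]
    apply Subtype.ext
    exact hx
  hm x := (τ x).2
  hs g hg := by
    obtain ⟨x, hx⟩ := hs ⟨g, hg⟩
    exact ⟨x, congrArg Subtype.val hx⟩
  h2 := h2
  h3 := h3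

theorem ceOf_sigma {Γ : Type*} [Group Γ] (τ : Γ →* Om m F) (hs : Function.Surjective τ) (hc : τ.ker ≤ Subgroup.center Γ)
    (h2 : (2 : F) ≠ 0) (h3 : 3 ≤ m) (x : Γ) : (ceOf τ hs hc h2 h3).σ x = (τ x : OO m F) := rfl

theorem card_Kd_odd (m : ℕ) : Odd (Fintype.card (Kd m)) := by
  simp only [Fintype.card_sum, Fintype.card_unit, Fintype.card_fin]
  exact ⟨m, by ring⟩

theorem center_Om_bot (h2 : (2 : F) ≠ 0) (hm : 2 ≤ m) : Subgroup.center (Om m F) = ⊥ :=
  Cfsg.Agent.Lib.Classical.Orth.Center.center_eq_bot (oddForm_nondegenerate h2 m) (card_Kd hm)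
    (fun g hg hm' => absurd ⟨g, hg, hm'⟩ (Cfsg.Agent.Lib.Classical.Orth.Center.neg_one_not_mem_of_odd h2 (card_Kd_odd m)))

/-- The quotient map from `Ω` to `PΩ`. -/
noncomputable def thetaOm (m : ℕ) (F : Type u) [Field F] [Fintype F] : Om m F →* Cfsg.POmega F ⇑(oddForm m F) :=
  QuotientGroup.mk' _

theorem thetaOm_surj : Function.Surjective (thetaOm m F) := QuotientGroup.mk'_surjective _

theorem thetaOm_ker (h2 : (2 : F) ≠ 0) (hm : 2 ≤ m) {x : Om m F} (h : thetaOm m F x = 1) : x = 1 := by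
  have h1 : x ∈ Subgroup.center (Om m F) := (QuotientGroup.eq_one_iff x).mp h
  rw [center_Om_bot h2 hm] at h1
  exact h1

/-- **The Schur multiplier of `PΩ_{2m+1}(F)`.** -/
theorem schur_main (h2 : (2 : F) ≠ 0) (h3 : 3 ≤ m) (hH : CE.HH m F) :
    Cfsg.HasSchurMultiplier (Cfsg.POmega F ⇑(oddForm m F)) (Multiplicative (ZMod 2)) := by
  have hm : 2 ≤ m := by omega
  haveI := finite_Sp (m := m) h2
  have hτ := tSp_stem (m := m) h2 hm
  have hpOm : commutator (Om m F) = ⊤ := commutator_omega_eq_top (oddForm_nondegenerate h2 m) (card_Kd hm)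
  have hSp := stem_perfect _ hτ hpOm
  obtain ⟨x₀, hx₀, hx₀1⟩ := exists_ker (m := m) h2 hm
  -- the kernel of the spin group
  let C₀ := ceOf (tSp m F) hτ.1 hτ.2.1 h2 h3
  obtain ⟨z₀, hz₀, hall₀⟩ := C₀.ker_two hH hSp
  have hC₀ : ∀ x, tSp m F x = 1 → C₀.σ x = 1 := fun x hx => by
    rw [ceOf_sigma, hx]
    rfl
  have hxz : x₀ = z₀ := (hall₀ x₀ (hC₀ x₀ hx₀)).resolve_left hx₀1
  have hx₀K : x₀ ∈ ((thetaOm m F).comp (tSp m F)).ker := by
    rw [MonoidHom.mem_ker, MonoidHom.comp_apply, hx₀, map_one]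
  have hk : ∀ x, (thetaOm m F).comp (tSp m F) x = 1 → tSp m F x = 1 := fun x hx => thetaOm_ker h2 hm hx
  obtain ⟨e⟩ := iso2 (K := ((thetaOm m F).comp (tSp m F)).ker) (m := ⟨x₀, hx₀K⟩)
    (fun h => hx₀1 (congrArg Subtype.val h)) (Subtype.ext (by show x₀ * x₀ = 1; rw [hxz]; exact hz₀)) (by
      rintro ⟨x, hx⟩
      rcases hall₀ x (hC₀ x (hk x hx)) with h | h
      · exact Or.inl (Subtype.ext h)
      · exact Or.inr (Subtype.ext (by show x = x₀; rw [h, hxz])))
  refine hasSchurMultiplier_of_universal ((thetaOm m F).comp (tSp m F))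
    ⟨thetaOm_surj.comp hτ.1, ?_, by rw [hSp]; exact le_top⟩ hSp ?_ e
  · intro x hx
    exact hτ.2.1 (hk x hx)
  · intro Γ' _ _ σ' hσ'
    have hcen := central_comp' σ' (tSp m F) hσ' hSp hτ.2.1
    let C' := ceOf ((tSp m F).comp σ') (hτ.1.comp hσ'.1) hcen h2 h3
    have hΓ' := stem_perfect σ' hσ' hSp
    obtain ⟨z, hz, hall⟩ := C'.ker_two hH hΓ'
    rw [eq_bot_iff]
    intro k hk'
    rw [Subgroup.mem_bot]
    have hk0 : σ' k = 1 := hk'
    have hk1 : C'.σ k = 1 := by
      rw [ceOf_sigma, MonoidHom.comp_apply, hk0, map_one]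
      rfl
    by_contra hne
    have hkz : k = z := (hall k hk1).resolve_left hne
    obtain ⟨mh, hmh⟩ := hσ'.1 x₀
    have h5 : C'.σ mh = 1 := by
      rw [ceOf_sigma, MonoidHom.comp_apply, hmh, hx₀]
      rfl
    rcases hall mh h5 with h | h
    · apply hx₀1
      rw [← hmh, h, map_one]
    · apply hx₀1
      rw [← hmh, h, ← hkz]
      exact hk0

/-- The hypothesis of the commutator computations. -/
theorem HH_of (h3 : 3 ≤ m) (hc : ¬ (m = 3 ∧ Fintype.card F = 3)) (ho : Odd (Fintype.card F)) : CE.HH m F := by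
  classical
  by_cases h4 : 4 ≤ m
  · exact Or.inl h4
  refine Or.inr ?_
  have hm3 : m = 3 := by omega
  have hc3 : Fintype.card F ≠ 3 := fun e => hc ⟨hm3, e⟩
  have h1 : 1 < Fintype.card F := Fintype.one_lt_card
  obtain ⟨k, hk⟩ := ho
  have h5 : 3 < Fintype.card F := by omega
  by_contra hcon
  push Not at hcon
  have hall : ∀ n : F, n ∈ ({0, 1, -1} : Finset F) := by
    intro n
    by_cases n0 : n = 0
    · simp [n0]
    · have := hcon n n0
      rcases mul_self_eq_one_iff.mp this with h | h <;> simp [h]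
  have h6 : Fintype.card F ≤ ({0, 1, -1} : Finset F).card := by
    rw [← Finset.card_univ]
    exact Finset.card_le_card (fun n _ => hall n)
  have h7 : ({0, 1, -1} : Finset F).card ≤ 3 := Finset.card_le_three
  omega

end Cfsg.Agent.Lib.SpinB
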